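import Cfsg.Agent.Lib.FrobFix.Deriv
import Mathlib

/-! Descent of `derived_trivial` to arbitrary fields and to elementary abelian groups. -/

set_option autoImplicit false

namespace Cfsg.Agent.Lib.FrobFix

open Module Subgroup
open scoped commutatorElement TensorProduct

section

variable {Ω H : Type*} [Group Ω] [Finite Ω] [Group H] [Finite H]

theorem derived_trivial_field {F V : Type*} [Field F] [AddCommGroup V] [Module F V]
    [FiniteDimensional F V] [Group.IsNilpotent Ω]
    (ρ : Ω →* End F V) (σ : H →* End F V) (α : H →* MulAut Ω)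
    (hc : ∀ s g, σ s * ρ g * σ s⁻¹ = ρ (α s g))
    (hfpf : ∀ s g, α s g = g → s = 1 ∨ g = 1)
    (hchar : ((Nat.card Ω : ℕ) : F) ≠ 0)
    (hdim : finrank F V ≤ Nat.card H) (x y : Ω) : ρ ⁅x, y⁆ = 1 := by
  let k := AlgebraicClosure F
  let b : End F V →* End k (k ⊗[F] V) := (Module.End.baseChangeHom F k V).toMonoidHom
  have h1 := derived_trivial (k := k) (V := k ⊗[F] V) (b.comp ρ) (b.comp σ) α
    (fun s g => by
      simp only [MonoidHom.comp_apply]
      rw [← map_mul, ← map_mul, hc])
    hfpf
    (by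
      have h2 : ((Nat.card Ω : ℕ) : k) = algebraMap F k ((Nat.card Ω : ℕ) : F) := by
        rw [map_natCast]
      rw [h2]
      exact (map_ne_zero _).2 hchar)
    (by
      rw [Module.finrank_baseChange]
      exact hdim)
    x y
  have hinj : Function.Injective (LinearMap.baseChangeHom F k V V) :=
    LinearMap.baseChangeHom_injective F V k
  apply hinj
  have h3 : LinearMap.baseChangeHom F k V V (1 : End F V) = (1 : End k (k ⊗[F] V)) :=
    LinearMap.baseChange_one _ _
  rw [h3]
  exact h1

/-- The commutative form. -/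
theorem derived_trivial_comm {Q : Type*} [CommGroup Q] [Finite Q] (q : ℕ) [hq' : Fact q.Prime]
    [Module (ZMod q) (Additive Q)]
    (ρ : Ω →* MulAut Q) (σ : H →* MulAut Q) (α : H →* MulAut Ω)
    (hc : ∀ h e x, σ h (ρ e ((σ h)⁻¹ x)) = ρ (α h e) x)
    (hfpf : ∀ h e, α h e = e → h = 1 ∨ e = 1) [hnil : Group.IsNilpotent Ω]
    (hΩ : ¬ q ∣ Nat.card Ω) (hcard : Nat.card Q ≤ q ^ Nat.card H) (x y : Ω) :
    ρ ⁅x, y⁆ = 1 := by
  let T : MulAut Q → Module.End (ZMod q) (Additive Q) :=
    fun φ => AddMonoidHom.toZModLinearMap q (MonoidHom.toAdditive φ.toMonoidHom)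
  have hT : ∀ (φ : MulAut Q) (x : Additive Q), T φ x = Additive.ofMul (φ (Additive.toMul x)) := by
    intro φ x
    simp only [T, AddMonoidHom.coe_toZModLinearMap, MonoidHom.coe_toAdditive]
    rfl
  let τ : MulAut Q →* Module.End (ZMod q) (Additive Q) :=
    { toFun := T
      map_one' := by
        apply LinearMap.ext
        intro x
        rw [hT, Module.End.one_apply]
        rfl
      map_mul' := by
        intro a b
        apply LinearMap.ext
        intro x
        rw [Module.End.mul_apply, hT, hT, hT]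
        rfl }
  have hτ : ∀ (φ : MulAut Q) (x : Additive Q), τ φ x = Additive.ofMul (φ (Additive.toMul x)) := hT
  haveI : FiniteDimensional (ZMod q) (Additive Q) := Module.Finite.of_finite
  have hfr : finrank (ZMod q) (Additive Q) ≤ Nat.card H := by
    have e4 : Nat.card (Additive Q) = q ^ finrank (ZMod q) (Additive Q) := by
      rw [Module.natCard_eq_pow_finrank (K := ZMod q), Nat.card_zmod]
    have e5 : Nat.card (Additive Q) = Nat.card Q := rfl
    rw [← e5, e4] at hcard
    exact (Nat.pow_le_pow_iff_right hq'.out.one_lt).1 hcard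
  have hne : ((Nat.card Ω : ℕ) : ZMod q) ≠ 0 := by
    intro h0
    exact hΩ ((ZMod.natCast_eq_zero_iff _ q).1 h0)
  have key := derived_trivial_field (τ.comp ρ) (τ.comp σ) α
    (fun s g => by
      apply LinearMap.ext
      intro w
      simp only [MonoidHom.comp_apply, Module.End.mul_apply, hτ, toMul_ofMul]
      rw [map_inv, hc])
    hfpf hne hfr x y
  ext w
  have h1 := LinearMap.congr_fun key (Additive.ofMul w)
  simp only [MonoidHom.comp_apply, hτ, toMul_ofMul] at h1
  exact Additive.ofMul.injective h1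

/-- The elementary abelian form. -/
theorem derived_trivial_elem {Q : Type*} [Group Q] [Finite Q] (q : ℕ) [hq' : Fact q.Prime]
    (hcomm : ∀ x y : Q, x * y = y * x) (hq : ∀ x : Q, x ^ q = 1)
    (ρ : Ω →* MulAut Q) (σ : H →* MulAut Q) (α : H →* MulAut Ω)
    (hc : ∀ h e x, σ h (ρ e ((σ h)⁻¹ x)) = ρ (α h e) x)
    (hfpf : ∀ h e, α h e = e → h = 1 ∨ e = 1) [hnil : Group.IsNilpotent Ω]
    (hΩ : ¬ q ∣ Nat.card Ω) (hcard : Nat.card Q ≤ q ^ Nat.card H) (x y : Ω) :
    ρ ⁅x, y⁆ = 1 := by
  letI cQ : CommGroup Q := { (inferInstance : Group Q) with mul_comm := hcomm }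
  letI mA : Module (ZMod q) (Additive Q) := AddCommGroup.zmodModule (n := q) (fun x => by
    show Additive.ofMul ((Additive.toMul x) ^ q) = 0
    rw [hq]
    rfl)
  exact @derived_trivial_comm Ω H _ _ _ _ Q cQ _ q hq' mA ρ σ α hc hfpf hnil hΩ hcard x y

end

end Cfsg.Agent.Lib.FrobFix
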