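import Cfsg.Agent.Lib.FrobFix.Main
import Cfsg.Agent.Lib.FrobFix.DerivQ
import Mathlib

/-! The derived group of a Frobenius kernel centralizes a nilpotent group when the fixed points of
the complement are cyclic. -/

set_option autoImplicit false

namespace Cfsg.Agent.Lib.FrobFix

open Subgroup
open scoped commutatorElement

universe u

variable {X : Type u} [Group X] [Finite X]

/-- Fixed points on a characteristic section lift. -/
theorem covering_lift (I L : Subgroup X) (hIL : ∀ x ∈ I, ∀ h ∈ L, x * h * x⁻¹ ∈ L)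
    (hsolv : Group.IsSolvable L) (hcop : Nat.Coprime (Nat.card L) (Nat.card I))
    (N₀ : Subgroup ↥L) [N₀.Characteristic] (S : Subgroup X) (hS : S ≤ I) (k : ↥L)
    (hc : ∀ x : ↥I, (x : X) ∈ S → quotHom N₀ (conjHom I L hIL) x (k : ↥L ⧸ N₀) = k) :
    ∃ (c' : X) (hc' : c' ∈ L ⊓ centralizer (S : Set X)), ((⟨c', hc'.1⟩ : ↥L) : ↥L ⧸ N₀) = k := by
  classical
  set N : Subgroup X := N₀.map L.subtype with hN
  have hSL : S ≤ normalizer (L : Set X) := (le_normalizer_of_conj I L hIL).trans' hS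
  have hNI := map_char_normalized I L hIL N₀
  have hNS : S ≤ normalizer (N : Set X) :=
    (le_normalizer_of_conj I N hNI).trans' hS
  have hNL : L ≤ normalizer (N : Set X) := by
    apply le_normalizer_of_conj
    rintro a ha _ ⟨n, hn, rfl⟩
    exact ⟨_, char_mem N₀ (MulAut.conj (⟨a, ha⟩ : ↥L)) hn, rfl⟩
  have hcopS : (Nat.card S).Coprime (Nat.card L) := by
    apply Nat.Coprime.symm
    apply Nat.Coprime.coprime_dvd_right _ hcop
    exact Subgroup.card_dvd_of_le hS
  have hfix : ∀ a ∈ S, a * (k : X) * a⁻¹ * (k : X)⁻¹ ∈ N := by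
    intro a ha
    have h1 := hc ⟨a, hS ha⟩ ha
    rw [quotHom_mk, QuotientGroup.eq] at h1
    have h2 : (k : ↥L)⁻¹ * conjHom I L hIL ⟨a, hS ha⟩ k ∈ N₀ := by
      convert (QuotientGroup.eq (s := N₀)).1 (Eq.symm ?_) using 1
      · exact (QuotientGroup.eq (s := N₀)).2 h1
    have h3 : (conjHom I L hIL ⟨a, hS ha⟩ k) * (k : ↥L)⁻¹ ∈ N₀ := by
      have h4 := char_mem N₀ (MulAut.conj (k : ↥L)) h2
      simpa [MulAut.conj_apply, mul_assoc] using h4
    refine ⟨_, h3, ?_⟩
    simp [conjHom_apply]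
  obtain ⟨c', hc', hkc⟩ := Cfsg.Agent.Lib.Hall.fixed_coset_lift S L hSL hcopS
    (Or.inr hsolv) N (by rintro _ ⟨n, _, rfl⟩; exact n.2) hNL hNS k k.2 hfix
  refine ⟨c', hc', ?_⟩
  apply (QuotientGroup.eq (s := N₀)).2
  obtain ⟨n, hn, hnx⟩ := hkc
  have : ((⟨c', hc'.1⟩ : ↥L)⁻¹ * k) = n⁻¹ := by
    apply Subtype.ext
    simp only [coe_mul, InvMemClass.coe_inv]
    rw [show ((n : ↥L) : X) = (k : X)⁻¹ * c' from hnx]
    group
  rw [this]
  exact inv_mem hn

/-- An element of coprime order acting trivially on a subgroup and on the quotient acts trivially. -/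
theorem centralizes_of_section (g y n : X) (hn : g * y * g⁻¹ * y⁻¹ = n) (hgn : g * n = n * g)
    (hcop : Nat.Coprime (orderOf g) (orderOf n)) : g * y = y * g := by
  have h1 : g * y * g⁻¹ = n * y := by
    rw [← hn]
    group
  have hit : ∀ i : ℕ, g ^ i * y * (g ^ i)⁻¹ = n ^ i * y := by
    intro i
    induction i with
    | zero => simp
    | succ i ih =>
      have hc : Commute g n := hgn
      calc g ^ (i + 1) * y * (g ^ (i + 1))⁻¹ = g * (g ^ i * y * (g ^ i)⁻¹) * g⁻¹ := by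
            rw [pow_succ']
            group
        _ = g * (n ^ i * y) * g⁻¹ := by rw [ih]
        _ = (g * n ^ i * g⁻¹) * (g * y * g⁻¹) := by group
        _ = n ^ i * (n * y) := by
            rw [h1, (hc.pow_right i).eq]
            group
        _ = n ^ (i + 1) * y := by rw [pow_succ, mul_assoc]
  have h2 := hit (orderOf g)
  rw [pow_orderOf_eq_one] at h2
  simp only [one_mul, inv_one, mul_one] at h2
  have h3 : n ^ orderOf g = 1 := by
    have h4 : n ^ orderOf g * y = 1 * y := by rw [← h2, one_mul]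
    exact mul_right_cancel h4
  have h4 : orderOf n ∣ orderOf g := orderOf_dvd_of_pow_eq_one h3
  have h5 : orderOf n = 1 := by
    have h6 := Nat.dvd_gcd h4 (dvd_refl (orderOf n))
    rw [Nat.gcd_comm] at h6
    have h7 : Nat.gcd (orderOf g) (orderOf n) = 1 := hcop
    rw [Nat.gcd_comm, h7] at h6
    exact Nat.dvd_one.1 h6
  have h6 : n = 1 := orderOf_eq_one_iff.1 h5
  rw [h6, one_mul] at h1
  calc g * y = g * y * g⁻¹ * g := by group
    _ = y * g := by rw [h1]

/-- The centralizing statement, by induction along an elementary abelian series. -/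
theorem deriv_cent (K R M : Subgroup X) (hR1 : R ≠ ⊥)
    (hUn : ∀ e ∈ R, ∀ u ∈ K, e * u * e⁻¹ ∈ K)
    (hfpf : ∀ e ∈ R, e ≠ 1 → ∀ u ∈ K, e * u = u * e → u = 1)
    (hMsolv : Group.IsSolvable M)
    (hcopM : Nat.Coprime (Nat.card M) (Nat.card ↥(K ⊔ R)))
    (hCK : M ⊓ centralizer (K : Set X) = ⊥)
    (hcyc : IsCyclic ↥(M ⊓ centralizer (R : Set X))) :
    ∀ (n : ℕ) (L : Subgroup X), Nat.card L ≤ n → L ≤ M →
      (∀ x ∈ K ⊔ R, ∀ h ∈ L, x * h * x⁻¹ ∈ L) →
      ∀ a ∈ K, ∀ b ∈ K, ∀ y ∈ L, ⁅a, b⁆ * y = y * ⁅a, b⁆ := by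
  classical
  intro n
  induction n with
  | zero =>
    intro L hL
    exfalso
    have := Nat.card_pos (α := L)
    omega
  | succ n ih =>
    intro L hL hLM hIL a ha b hb y hy
    by_cases hbot : L = ⊥
    · subst hbot
      rw [Subgroup.mem_bot] at hy
      rw [hy, mul_one, one_mul]
    haveI : Nontrivial L := (Subgroup.nontrivial_iff_ne_bot L).2 hbot
    have hsolv : Group.IsSolvable L :=
      Group.isSolvable_of_isSolvable_injective (f := Subgroup.inclusion hLM)
        (Subgroup.inclusion_injective hLM)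
    have hcop : Nat.Coprime (Nat.card L) (Nat.card ↥(K ⊔ R)) :=
      Nat.Coprime.coprime_dvd_left (Subgroup.card_dvd_of_le hLM) hcopM
    obtain ⟨q, hq, N₀, hchar, hne, hcomm, hpow⟩ := exists_elem_quot ↥L
    set I : Subgroup X := K ⊔ R with hI
    set N : Subgroup X := N₀.map L.subtype with hN
    have hNle : N ≤ L := by
      rintro _ ⟨n, _, rfl⟩
      exact n.2
    have hNcard : Nat.card N = Nat.card N₀ :=
      Subgroup.card_map_of_injective L.subtype_injective
    have hcardL : Nat.card L = Nat.card N * Nat.card (↥L ⧸ N₀) := by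
      rw [hNcard, mul_comm]
      exact Subgroup.card_eq_card_quotient_mul_card_subgroup N₀
    have hQ1 : Nat.card (↥L ⧸ N₀) ≠ 1 := by
      intro h
      apply hne
      have hsub : Subsingleton (↥L ⧸ N₀) := (Nat.card_eq_one_iff_unique.1 h).1
      rw [eq_top_iff]
      intro x _
      have : ((x : ↥L) : ↥L ⧸ N₀) = 1 := Subsingleton.elim _ _
      exact (QuotientGroup.eq_one_iff x).1 this
    have hQpos : 0 < Nat.card (↥L ⧸ N₀) := Nat.card_pos
    have hNpos : 0 < Nat.card N := Nat.card_pos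
    have hNlt : Nat.card N ≤ n := by
      have : Nat.card N * 2 ≤ Nat.card L := by
        rw [hcardL]
        exact Nat.mul_le_mul_left _ (by omega)
      omega
    have hIH := ih N hNlt (hNle.trans hLM) (map_char_normalized I L hIL N₀) a ha b hb
    -- The section
    let ψb : ↥I →* MulAut (↥L ⧸ N₀) := quotHom N₀ (conjHom I L hIL)
    have hUI : K ≤ I := le_sup_left
    have hEI : R ≤ I := le_sup_right
    let ρ : ↥K →* MulAut (↥L ⧸ N₀) := ψb.comp (Subgroup.inclusion hUI)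
    let σ : ↥R →* MulAut (↥L ⧸ N₀) := ψb.comp (Subgroup.inclusion hEI)
    let α : ↥R →* MulAut ↥K := conjHom R K hUn
    haveI : Group.IsNilpotent K := kernel_nilpotent K R hR1 hUn hfpf
    have hcomm' : ∀ x y : ↥L ⧸ N₀, x * y = y * x := by
      intro x y
      obtain ⟨x, rfl⟩ := QuotientGroup.mk_surjective x
      obtain ⟨y, rfl⟩ := QuotientGroup.mk_surjective y
      rw [← QuotientGroup.mk_mul, ← QuotientGroup.mk_mul]
      apply (QuotientGroup.eq (s := N₀)).2
      have h := hcomm y⁻¹ x⁻¹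
      have e : (x * y)⁻¹ * (y * x) = y⁻¹ * x⁻¹ * y⁻¹⁻¹ * x⁻¹⁻¹ := by group
      rw [e]
      exact h
    have hpow' : ∀ x : ↥L ⧸ N₀, x ^ q = 1 := by
      intro x
      obtain ⟨x, rfl⟩ := QuotientGroup.mk_surjective x
      rw [← QuotientGroup.mk_pow]
      exact (QuotientGroup.eq_one_iff _).2 (hpow x)
    have hqQ : q ∣ Nat.card (↥L ⧸ N₀) := by
      have hnt : Nontrivial (↥L ⧸ N₀) := by
        by_contra hnt
        rw [not_nontrivial_iff_subsingleton] at hnt
        exact hQ1 (Nat.card_eq_one_iff_unique.2 ⟨hnt, ⟨1⟩⟩)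
      obtain ⟨x, hx⟩ := exists_ne (1 : ↥L ⧸ N₀)
      have h1 : orderOf x = q := orderOf_eq_prime (hpow' x) hx
      rw [← h1]
      exact orderOf_dvd_natCard x
    have hqL : q ∣ Nat.card L := hcardL ▸ Dvd.dvd.mul_left hqQ _
    have hqI : ¬ q ∣ Nat.card I := by
      intro h
      have := Nat.dvd_gcd hqL h
      rw [hcop] at this
      exact hq.out.one_lt.ne' (Nat.dvd_one.1 this)
    have hqU : ¬ q ∣ Nat.card K := fun h => hqI (h.trans (Subgroup.card_dvd_of_le hUI))
    have hqE : ¬ q ∣ Nat.card R := fun h => hqI (h.trans (Subgroup.card_dvd_of_le hEI))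
    have hc : ∀ (h : ↥R) (e : ↥K) (x : ↥L ⧸ N₀), σ h (ρ e ((σ h)⁻¹ x)) = ρ (α h e) x := by
      intro h e x
      have h1 : Subgroup.inclusion hUI (α h e) = Subgroup.inclusion hEI h * Subgroup.inclusion hUI e *
          (Subgroup.inclusion hEI h)⁻¹ := Subtype.ext rfl
      show _ = ψb (Subgroup.inclusion hUI (α h e)) x
      rw [h1, map_mul, map_mul, map_inv]
      rfl
    have hfpf' : ∀ (h : ↥R) (e : ↥K), α h e = e → h = 1 ∨ e = 1 := by
      intro h e hh
      by_cases h1 : h = 1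
      · exact Or.inl h1
      · right
        apply Subtype.ext
        have h2 : (h : X) * e * (h : X)⁻¹ = e := congrArg Subtype.val hh
        refine hfpf h h.2 (fun h3 => h1 (Subtype.ext h3)) e e.2 ?_
        calc (h : X) * e = (h : X) * e * (h : X)⁻¹ * h := by group
          _ = e * h := by rw [h2]
    have hsec := section_formula q hcomm' hpow' ρ σ α hc hfpf' hqU hqE
    have fixS : ∀ (S : Subgroup X) (hS : S ≤ I) (c : ↥L ⧸ N₀),
        (∀ e : ↥S, ψb (Subgroup.inclusion hS e) c = c) ↔ ∀ x : ↥I, (x : X) ∈ S → ψb x c = c := by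
      intro S hS c
      constructor
      · intro h x hx
        exact h ⟨x, hx⟩
      · intro h e
        exact h _ e.2
    -- `C_Q(K)` is trivial
    have cK := covering_count I L hIL hsolv hcop N₀ K hUI
    have hLK : L ⊓ centralizer (K : Set X) = ⊥ := by
      rw [eq_bot_iff, ← hCK]
      exact inf_le_inf_right _ hLM
    rw [hLK, Subgroup.card_bot] at cK
    have aK : Nat.card {x : ↥L ⧸ N₀ // ∀ e, ρ e x = x} = 1 := by
      have h1 : Nat.card {x : ↥L ⧸ N₀ // ∀ e, ρ e x = x} =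
          Nat.card {c : ↥L ⧸ N₀ // ∀ x : ↥I, (x : X) ∈ K →
            quotHom N₀ (conjHom I L hIL) x c = c} :=
        Nat.card_congr (Equiv.subtypeEquivRight (fun c => fixS K hUI c))
      rw [h1]
      exact Nat.eq_one_of_mul_eq_one_left cK.symm
    -- `C_Q(R)` has order at most `q`.
    have aR : Nat.card {x : ↥L ⧸ N₀ // ∀ e, σ e x = x} ≤ q := by
      haveI : IsCyclic ↥(L ⊓ centralizer (R : Set X)) :=
        isCyclic_of_injective (Subgroup.inclusion (inf_le_inf_right _ hLM))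
          (Subgroup.inclusion_injective _)
      let θ : ↥(L ⊓ centralizer (R : Set X)) →* ↥L ⧸ N₀ :=
        (QuotientGroup.mk' N₀).comp (Subgroup.inclusion inf_le_left)
      have hθ : ∀ y : ↥(L ⊓ centralizer (R : Set X)), θ y = ((⟨y.1, y.2.1⟩ : ↥L) : ↥L ⧸ N₀) :=
        fun y => rfl
      haveI : IsCyclic θ.range :=
        isCyclic_of_surjective θ.rangeRestrict θ.rangeRestrict_surjective
      obtain ⟨g, hg⟩ := IsCyclic.exists_ofOrder_eq_natCard (α := θ.range)
      have hgq : g ^ q = 1 := by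
        apply Subtype.ext
        exact hpow' _
      have h2 : Nat.card θ.range ≤ q := by
        rw [← hg]
        exact orderOf_le_of_pow_eq_one hq.out.pos hgq
      have h3 : Nat.card {x : ↥L ⧸ N₀ // ∀ e, σ e x = x} ≤ Nat.card θ.range := by
        apply Nat.card_le_card_of_injective
          (fun c : {x : ↥L ⧸ N₀ // ∀ e, σ e x = x} => (⟨c.1, ?_⟩ : θ.range))
        · intro c d hcd
          apply Subtype.ext
          exact congrArg (fun t : θ.range => (t : ↥L ⧸ N₀)) hcd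
        · obtain ⟨c, hcm⟩ := c
          obtain ⟨k, rfl⟩ := QuotientGroup.mk_surjective c
          obtain ⟨c', hc', hck⟩ := covering_lift I L hIL hsolv hcop N₀ R hEI k
            ((fixS R hEI _).1 hcm)
          exact ⟨⟨c', hc'⟩, by rw [hθ, hck]⟩
      exact h3.trans h2
    have hcardQ : Nat.card (↥L ⧸ N₀) ≤ q ^ Nat.card R := by
      have h1 : 0 < Nat.card {x : ↥L ⧸ N₀ // (∀ h, σ h x = x) ∧ ∀ e, ρ e x = x} := by
        haveI : Nonempty {x : ↥L ⧸ N₀ // (∀ h, σ h x = x) ∧ ∀ e, ρ e x = x} :=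
          ⟨⟨1, fun h => map_one _, fun e => map_one _⟩⟩
        exact Nat.card_pos
      calc Nat.card (↥L ⧸ N₀) ≤ Nat.card {x : ↥L ⧸ N₀ // (∀ h, σ h x = x) ∧ ∀ e, ρ e x = x} ^
              Nat.card R * Nat.card (↥L ⧸ N₀) :=
            Nat.le_mul_of_pos_left _ (pow_pos h1 _)
        _ = Nat.card {x : ↥L ⧸ N₀ // ∀ h, σ h x = x} ^ Nat.card R := by rw [hsec, aK, mul_one]
        _ ≤ q ^ Nat.card R := Nat.pow_le_pow_left aR _
    have hder := derived_trivial_elem q hcomm' hpow' ρ σ α hc hfpf' hqU hcardQ ⟨a, ha⟩ ⟨b, hb⟩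
    -- Conclude through the section.
    set g : X := ⁅a, b⁆ with hg
    have hgK : g ∈ K := K.mul_mem (K.mul_mem (K.mul_mem ha hb) (K.inv_mem ha)) (K.inv_mem hb)
    have hgI : g ∈ I := hUI hgK
    have hact : ρ (⁅(⟨a, ha⟩ : ↥K), (⟨b, hb⟩ : ↥K)⁆) = ψb ⟨g, hgI⟩ := rfl
    rw [hact] at hder
    have h1 : ψb ⟨g, hgI⟩ ((⟨y, hy⟩ : ↥L) : ↥L ⧸ N₀) = ((⟨y, hy⟩ : ↥L) : ↥L ⧸ N₀) := by
      rw [hder]
      rfl
    rw [show ψb = quotHom N₀ (conjHom I L hIL) from rfl, quotHom_mk] at h1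
    have h2 := (QuotientGroup.eq (s := N₀)).1 h1
    have h3 : (conjHom I L hIL ⟨g, hgI⟩ ⟨y, hy⟩) * (⟨y, hy⟩ : ↥L)⁻¹ ∈ N₀ := by
      have h4 := char_mem N₀ (MulAut.conj (conjHom I L hIL ⟨g, hgI⟩ ⟨y, hy⟩)) (inv_mem h2)
      convert h4 using 1
      simp [MulAut.conj_apply, mul_assoc]
    have h5 : g * y * g⁻¹ * y⁻¹ ∈ N := ⟨_, h3, rfl⟩
    refine centralizes_of_section g y _ rfl (hIH _ h5) ?_
    apply Nat.Coprime.symm
    apply Nat.Coprime.coprime_dvd_left ((Subgroup.orderOf_dvd_natCard N h5).trans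
      (Subgroup.card_dvd_of_le hNle))
    apply Nat.Coprime.coprime_dvd_right (Subgroup.orderOf_dvd_natCard I hgI)
    exact hcop

end Cfsg.Agent.Lib.FrobFix
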