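import Cfsg.Agent.Lib.FrobFix.Quot
import Cfsg.Agent.Lib.Hall.CoprimeAction
import Mathlib

/-! Fixed points of a coprime action on a section lift. -/

set_option autoImplicit false

namespace Cfsg.Agent.Lib.FrobFix

open Subgroup

variable {X : Type*} [Group X]

theorem le_normalizer_of_conj (A B : Subgroup X) (h : ∀ a ∈ A, ∀ b ∈ B, a * b * a⁻¹ ∈ B) :
    A ≤ normalizer (B : Set X) := by
  intro a ha
  rw [Subgroup.mem_normalizer_iff]
  intro b
  constructor
  · exact h a ha b
  · intro hb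
    have := h a⁻¹ (inv_mem ha) _ hb
    simpa [mul_assoc] using this

theorem char_mem {L : Type*} [Group L] (N₀ : Subgroup L) [N₀.Characteristic] (φ : L ≃* L) {n : L}
    (hn : n ∈ N₀) : φ n ∈ N₀ := by
  have h := (inferInstance : N₀.Characteristic).fixed φ.symm
  rw [← h]
  show φ.symm (φ n) ∈ N₀
  simpa using hn

/-- The image in `X` of a characteristic subgroup of a normalized subgroup is normalized. -/
theorem map_char_normalized (I L : Subgroup X) (hIL : ∀ x ∈ I, ∀ h ∈ L, x * h * x⁻¹ ∈ L)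
    (N₀ : Subgroup ↥L) [N₀.Characteristic] :
    ∀ x ∈ I, ∀ h ∈ N₀.map L.subtype, x * h * x⁻¹ ∈ N₀.map L.subtype := by
  rintro x hx _ ⟨n, hn, rfl⟩
  exact ⟨_, char_mem N₀ (conjHom I L hIL ⟨x, hx⟩) hn, rfl⟩

variable [Finite X]

/-- Counting fixed points through a characteristic section. -/
theorem covering_count (I L : Subgroup X) (hIL : ∀ x ∈ I, ∀ h ∈ L, x * h * x⁻¹ ∈ L)
    (hsolv : Group.IsSolvable L) (hcop : Nat.Coprime (Nat.card L) (Nat.card I))
    (N₀ : Subgroup ↥L) [N₀.Characteristic] (S : Subgroup X) (hS : S ≤ I) :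
    Nat.card ↥(L ⊓ centralizer (S : Set X)) =
      Nat.card ↥(N₀.map L.subtype ⊓ centralizer (S : Set X)) *
        Nat.card {c : ↥L ⧸ N₀ // ∀ x : ↥I, (x : X) ∈ S → quotHom N₀ (conjHom I L hIL) x c = c} := by
  classical
  set N : Subgroup X := N₀.map L.subtype with hN
  set P : Subgroup X := L ⊓ centralizer (S : Set X) with hP
  let θ : ↥P →* ↥L ⧸ N₀ :=
    (QuotientGroup.mk' N₀).comp (Subgroup.inclusion (inf_le_left : P ≤ L))
  have hθ : ∀ y : ↥P, θ y = ((⟨y.1, y.2.1⟩ : ↥L) : ↥L ⧸ N₀) := fun y => rfl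
  have hcard : Nat.card ↥P = Nat.card θ.ker * Nat.card θ.range := by
    rw [← Subgroup.index_ker, Subgroup.card_mul_index]
  have hker : Nat.card θ.ker = Nat.card ↥(N ⊓ centralizer (S : Set X)) := by
    apply Nat.card_congr
    refine
      { toFun := fun y => ⟨y.1.1, ?_, y.1.2.2⟩
        invFun := fun y => ⟨⟨y.1, ?_, y.2.2⟩, ?_⟩
        left_inv := ?_
        right_inv := ?_ }
    · have h1 : θ y.1 = 1 := y.2
      rw [hθ, QuotientGroup.eq_one_iff] at h1
      exact ⟨_, h1, rfl⟩
    · obtain ⟨n, hn, hny⟩ := y.2.1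
      rw [← hny]
      exact n.2
    · obtain ⟨n, hn, hny⟩ := y.2.1
      show θ _ = 1
      rw [hθ, QuotientGroup.eq_one_iff]
      have : (⟨y.1, by rw [← hny]; exact n.2⟩ : ↥L) = n := Subtype.ext hny.symm
      simpa [this] using hn
    · intro y
      rfl
    · intro y
      rfl
  have hrange : Nat.card θ.range = Nat.card
      {c : ↥L ⧸ N₀ // ∀ x : ↥I, (x : X) ∈ S → quotHom N₀ (conjHom I L hIL) x c = c} := by
    apply Nat.card_congr
    refine Equiv.subtypeEquivRight ?_
    intro c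
    constructor
    · rintro ⟨y, rfl⟩ x hx
      rw [hθ, quotHom_mk]
      congr 1
      apply Subtype.ext
      rw [conjHom_apply]
      have h1 := (Subgroup.mem_centralizer_iff.1 y.2.2) x hx
      show (x : X) * y.1 * (x : X)⁻¹ = y.1
      rw [h1]
      group
    · intro hc
      obtain ⟨k, rfl⟩ := QuotientGroup.mk_surjective c
      have hSL : S ≤ normalizer (L : Set X) := (le_normalizer_of_conj I L hIL).trans' hS
      have hNI := map_char_normalized I L hIL N₀
      have hNS : S ≤ normalizer (N : Set X) :=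
        (le_normalizer_of_conj I N hNI).trans' hS
      have hNL : L ≤ normalizer (N : Set X) := by
        apply le_normalizer_of_conj
        rintro a ha _ ⟨n, hn, rfl⟩
        exact ⟨_, char_mem N₀ (MulAut.conj (⟨a, ha⟩ : ↥L)) hn, rfl⟩
      have hcopS : (Nat.card S).Coprime (Nat.card L) := by
        apply Nat.Coprime.symm
        apply Nat.Coprime.coprime_dvd_right _ hcop
        exact Subgroup.card_dvd_of_le hS
      have hfix : ∀ a ∈ S, a * (k : X) * a⁻¹ * (k : X)⁻¹ ∈ N := by
        intro a ha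
        have h1 := hc ⟨a, hS ha⟩ ha
        rw [quotHom_mk, QuotientGroup.eq] at h1
        have h2 : (k : ↥L)⁻¹ * conjHom I L hIL ⟨a, hS ha⟩ k ∈ N₀ := by
          convert (QuotientGroup.eq (s := N₀)).1 (Eq.symm ?_) using 1
          · exact (QuotientGroup.eq (s := N₀)).2 h1
        have h3 : (conjHom I L hIL ⟨a, hS ha⟩ k) * (k : ↥L)⁻¹ ∈ N₀ := by
          have h4 := char_mem N₀ (MulAut.conj (k : ↥L)) h2
          simpa [MulAut.conj_apply, mul_assoc] using h4
        refine ⟨_, h3, ?_⟩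
        simp [conjHom_apply]
      obtain ⟨c', hc', hkc⟩ := Cfsg.Agent.Lib.Hall.fixed_coset_lift S L hSL hcopS
        (Or.inr hsolv) N (by rintro _ ⟨n, _, rfl⟩; exact n.2) hNL hNS k k.2 hfix
      refine ⟨⟨c', hc'⟩, ?_⟩
      rw [hθ]
      apply (QuotientGroup.eq (s := N₀)).2
      obtain ⟨n, hn, hnx⟩ := hkc
      have : ((⟨c', hc'.1⟩ : ↥L)⁻¹ * k) = n⁻¹ := by
        apply Subtype.ext
        simp only [coe_mul, InvMemClass.coe_inv]
        rw [show ((n : ↥L) : X) = (k : X)⁻¹ * c' from hnx]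
        group
      rw [this]
      exact inv_mem hn
  rw [hcard, hker, hrange]

end Cfsg.Agent.Lib.FrobFix
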