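import Mathlib

/-! If a Frobenius group acts on a space of dimension at most the order of its complement, the
derived group of the kernel acts trivially (over an algebraically closed field, in coprime
characteristic). -/

set_option autoImplicit false

namespace Cfsg.Agent.Lib.FrobFix

open Module Subgroup
open scoped commutatorElement

section

variable {k V Ω H : Type*} [Field k] [AddCommGroup V] [Module k V]

theorem semisimple_of_pow_eq_one (T : End k V) (n : ℕ) (hn : (n : k) ≠ 0) (hT : T ^ n = 1) :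
    T.IsSemisimple := by
  have hsep : (Polynomial.X ^ n - Polynomial.C (1 : k)).Separable :=
    Polynomial.separable_X_pow_sub_C _ hn one_ne_zero
  apply Module.End.isSemisimple_of_squarefree_aeval_eq_zero hsep.squarefree
  simp [hT]

theorem finrank_iSup_indep' [FiniteDimensional k V] {ι : Type*} [Fintype ι]
    (D : ι → Submodule k V) (h : iSupIndep D) :
    finrank k (⨆ i, D i : Submodule k V) = ∑ i, finrank k (D i) := by
  classical
  have h1 := (iSupIndep_iff_dfinsupp_lsum_injective D).1 h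
  rw [Submodule.iSup_eq_range_dfinsupp_lsum]
  have h2 := LinearMap.finrank_range_of_inj h1
  rw [h2]
  exact Module.finrank_directSum k (fun i => D i)

/-- If `Ω` is nilpotent and some commutator acts nontrivially, then there is an element of the
derived subgroup acting nontrivially whose image is central. -/
theorem exists_central_image {M : Type*} [Monoid M] [Group Ω] [hnil : Group.IsNilpotent Ω]
    (ρ : Ω →* M) (x y : Ω) (hxy : ρ ⁅x, y⁆ ≠ 1) :
    ∃ z ∈ commutator Ω, ρ z ≠ 1 ∧ ∀ g, Commute (ρ z) (ρ g) := by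
  by_contra hno
  push Not at hno
  have hP : ∀ i, ∀ w ∈ Subgroup.upperCentralSeries Ω i, w ∈ commutator Ω → ρ w = 1 := by
    intro i
    induction i with
    | zero =>
      intro w hw _
      rw [Subgroup.upperCentralSeries_zero, Subgroup.mem_bot] at hw
      rw [hw, map_one]
    | succ i ih =>
      intro w hw hwD
      by_contra hw1
      obtain ⟨g, hg⟩ := hno w hwD hw1
      apply hg
      have h1 : ρ (w * g * w⁻¹ * g⁻¹) = 1 :=
        ih _ (Subgroup.mem_upperCentralSeries_succ_iff.1 hw g)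
          (Subgroup.commutator_mem_commutator (mem_top w) (mem_top g))
      show ρ w * ρ g = ρ g * ρ w
      calc ρ w * ρ g = ρ (w * g * w⁻¹ * g⁻¹ * (g * w)) := by
            rw [← map_mul]
            congr 1
            group
        _ = ρ g * ρ w := by rw [map_mul, h1, one_mul, map_mul]
  obtain ⟨c, hc⟩ := hnil.nilpotent'
  exact hxy (hP c _ (by rw [hc]; trivial)
    (Subgroup.commutator_mem_commutator (mem_top x) (mem_top y)))

variable [Group Ω] [Finite Ω] [Group H] [Finite H]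

/-- The derived group of the kernel acts trivially in small dimension. -/
theorem derived_trivial [IsAlgClosed k] [FiniteDimensional k V] [Group.IsNilpotent Ω]
    (ρ : Ω →* End k V) (σ : H →* End k V) (α : H →* MulAut Ω)
    (hc : ∀ s g, σ s * ρ g * σ s⁻¹ = ρ (α s g))
    (hfpf : ∀ s g, α s g = g → s = 1 ∨ g = 1)
    (hchar : ((Nat.card Ω : ℕ) : k) ≠ 0)
    (hdim : finrank k V ≤ Nat.card H) (x y : Ω) : ρ ⁅x, y⁆ = 1 := by
  classical
  by_contra hxy
  obtain ⟨z, hzD, hz1, hzc⟩ := exists_central_image ρ x y hxy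
  have hρinv1 : ∀ a : Ω, ρ a⁻¹ * ρ a = 1 := fun a => by rw [← map_mul, inv_mul_cancel, map_one]
  have hρinv2 : ∀ a : Ω, ρ a * ρ a⁻¹ = 1 := fun a => by rw [← map_mul, mul_inv_cancel, map_one]
  let B : Subgroup Ω :=
    { carrier := {b | ∀ g, Commute (ρ b) (ρ g)}
      mul_mem' := by
        intro a b ha hb g
        rw [map_mul]
        exact (ha g).mul_left (hb g)
      one_mem' := by
        intro g
        rw [map_one]
        exact Commute.one_left _
      inv_mem' := by
        intro a ha g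
        show ρ a⁻¹ * ρ g = ρ g * ρ a⁻¹
        calc ρ a⁻¹ * ρ g = ρ a⁻¹ * ρ g * (ρ a * ρ a⁻¹) := by rw [hρinv2, mul_one]
          _ = ρ a⁻¹ * (ρ g * ρ a) * ρ a⁻¹ := by simp only [mul_assoc]
          _ = ρ a⁻¹ * (ρ a * ρ g) * ρ a⁻¹ := by rw [(ha g).eq]
          _ = (ρ a⁻¹ * ρ a) * ρ g * ρ a⁻¹ := by simp only [mul_assoc]
          _ = ρ g * ρ a⁻¹ := by rw [hρinv1, one_mul] }
  have hBmem : ∀ b, b ∈ B ↔ ∀ g, Commute (ρ b) (ρ g) := fun b => Iff.rfl
  let f : ↥B → End k V := fun b => ρ b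
  have hfcomm : ∀ i j, Commute (f i) (f j) := fun i j => i.2 j
  have hn : ∀ g, (ρ g) ^ Nat.card Ω = 1 := by
    intro g
    rw [← map_pow, pow_card_eq_one', map_one]
  have hss : ∀ g, (ρ g).IsSemisimple := fun g => semisimple_of_pow_eq_one _ _ hchar (hn g)
  have hgen_eq : ∀ g μ, (ρ g).maxGenEigenspace μ = (ρ g).eigenspace μ := fun g μ =>
    (Module.End.isFinitelySemisimple_iff_isSemisimple.2 (hss g)).maxGenEigenspace_eq_eigenspace μ
  have htop : ⨆ χ : ↥B → k, ⨅ i, (f i).maxGenEigenspace (χ i) = ⊤ :=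
    Module.End.iSup_iInf_maxGenEigenspace_eq_top_of_iSup_maxGenEigenspace_eq_top_of_commute f
      (fun i j _ => hfcomm i j) (fun i => Module.End.iSup_maxGenEigenspace_eq_top (f i))
  let Lχ : (↥B → k) → Submodule k V := fun χ => ⨅ i, (f i).maxGenEigenspace (χ i)
  have hLmem : ∀ χ v, v ∈ Lχ χ ↔ ∀ b : ↥B, ρ b v = χ b • v := by
    intro χ v
    simp only [Lχ, Submodule.mem_iInf, f, hgen_eq, Module.End.mem_eigenspace_iff]
  have hzB : z ∈ B := hzc
  obtain ⟨χ, hχ0, hχz⟩ : ∃ χ : ↥B → k, Lχ χ ≠ ⊥ ∧ χ ⟨z, hzB⟩ ≠ 1 := by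
    by_contra hno
    push Not at hno
    apply hz1
    have hle : ⨆ χ, Lχ χ ≤ (ρ z).eigenspace 1 := by
      apply iSup_le
      intro χ v hv
      by_cases h0 : Lχ χ = ⊥
      · rw [h0, Submodule.mem_bot] at hv
        rw [hv]
        exact Submodule.zero_mem _
      · have h2 := hno χ h0
        rw [Module.End.mem_eigenspace_iff]
        have h3 := (hLmem χ v).1 hv ⟨z, hzB⟩
        rw [h2] at h3
        exact h3
    have htop' : (ρ z).eigenspace 1 = ⊤ := by
      rw [eq_top_iff, ← htop]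
      exact hle
    apply LinearMap.ext
    intro v
    have hv : v ∈ (ρ z).eigenspace 1 := by
      rw [htop']
      trivial
    rw [Module.End.mem_eigenspace_iff, one_smul] at hv
    simpa using hv
  obtain ⟨v0, hv0, hv0ne⟩ := Submodule.exists_mem_ne_zero_of_ne_bot hχ0
  have hv0' := (hLmem χ v0).1 hv0
  have hχmul : ∀ a b : ↥B, χ (a * b) = χ a * χ b := by
    intro a b
    have h1 := hv0' (a * b)
    have h2 : ρ ((a * b : ↥B) : Ω) v0 = ρ a (ρ b v0) := by
      simp [map_mul]
    rw [h2, hv0' b, map_smul, hv0' a, smul_smul] at h1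
    have h3 := smul_left_injective k hv0ne h1
    rw [← h3, mul_comm]
  have hχ1 : χ 1 = 1 := by
    have h1 := hv0' 1
    have h2 : ρ ((1 : ↥B) : Ω) v0 = (1 : k) • v0 := by simp
    rw [h2] at h1
    exact (smul_left_injective k hv0ne h1).symm
  have hσ1 : ∀ s, σ s * σ s⁻¹ = 1 := fun s => by rw [← map_mul, mul_inv_cancel, map_one]
  have hσ2 : ∀ s, σ s⁻¹ * σ s = 1 := fun s => by rw [← map_mul, inv_mul_cancel, map_one]
  have hαα : ∀ s (g : Ω), α s (α s⁻¹ g) = g := by
    intro s g
    rw [← MulAut.mul_apply, ← map_mul, mul_inv_cancel, map_one, MulAut.one_apply]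
  have hαα' : ∀ s (g : Ω), α s⁻¹ (α s g) = g := by
    intro s g
    rw [← MulAut.mul_apply, ← map_mul, inv_mul_cancel, map_one, MulAut.one_apply]
  have hprod : ∀ s a c, ρ (α s a) * ρ (α s c) = σ s * (ρ a * ρ c) * σ s⁻¹ := by
    intro s a c
    rw [← hc, ← hc]
    calc σ s * ρ a * σ s⁻¹ * (σ s * ρ c * σ s⁻¹) = σ s * ρ a * (σ s⁻¹ * σ s) * ρ c * σ s⁻¹ := by
          simp only [mul_assoc]
      _ = _ := by rw [hσ2, mul_one]; simp only [mul_assoc]
  have hαB : ∀ s (b : ↥B), α s b ∈ B := by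
    intro s b g
    show ρ (α s b) * ρ g = ρ g * ρ (α s b)
    rw [← hαα s g, hprod, hprod, (b.2 (α s⁻¹ g)).eq]
  let χs : H → ↥B → k := fun s b => χ ⟨α s⁻¹ b, hαB s⁻¹ b⟩
  have hρσ : ∀ s (b : Ω) (w : V), ρ b (σ s w) = σ s (ρ (α s⁻¹ b) w) := by
    intro s b w
    have h1 : ρ b * σ s = σ s * ρ (α s⁻¹ b) := by
      rw [← hαα s b, ← hc, hαα', mul_assoc _ (σ s⁻¹), hσ2, mul_one]
    have := LinearMap.congr_fun h1 w
    simpa using this
  have hσinj : ∀ s, Function.Injective (σ s) := by
    intro s u w huw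
    have h1 := congrArg (σ s⁻¹) huw
    have h2 : ∀ t, σ s⁻¹ (σ s t) = t := fun t => by
      have := LinearMap.congr_fun (hσ2 s) t
      simpa using this
    rwa [h2, h2] at h1
  have hmaps : ∀ s, (Lχ χ).map (σ s) ≤ Lχ (χs s) := by
    rintro s _ ⟨w, hw, rfl⟩
    rw [hLmem]
    intro b
    show ρ b (σ s w) = _ • σ s w
    rw [hρσ]
    have := (hLmem χ w).1 hw ⟨α s⁻¹ b, hαB s⁻¹ b⟩
    rw [this, map_smul]
  have hχsinj : Function.Injective χs := by
    intro s t hst
    by_contra hne
    set u : H := s⁻¹ * t with hu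
    have hu1 : u ≠ 1 := by
      intro h
      apply hne
      rw [hu, inv_mul_eq_one] at h
      exact h
    have hinv : ∀ c : ↥B, χ ⟨α u c, hαB u c⟩ = χ c := by
      intro c
      have h1 := congrFun hst ⟨α t c, hαB t c⟩
      simp only [χs] at h1
      have h2 : (⟨α t⁻¹ (α t c), hαB t⁻¹ ⟨α t c, hαB t c⟩⟩ : ↥B) = c := Subtype.ext (hαα' t c)
      have h3 : (⟨α s⁻¹ (α t c), hαB s⁻¹ ⟨α t c, hαB t c⟩⟩ : ↥B) = ⟨α u c, hαB u c⟩ := by
        apply Subtype.ext
        show α s⁻¹ (α t c) = α u c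
        rw [hu, map_mul, MulAut.mul_apply]
      rw [h2, h3] at h1
      exact h1
    let φ : ↥B → ↥B := fun c => c⁻¹ * ⟨α u c, hαB u c⟩
    have hφinj : Function.Injective φ := by
      intro c d hcd
      have h1 : (c : Ω)⁻¹ * α u c = (d : Ω)⁻¹ * α u d := congrArg Subtype.val hcd
      have h2 : α u ((d : Ω) * (c : Ω)⁻¹) = (d : Ω) * (c : Ω)⁻¹ := by
        rw [map_mul, map_inv]
        have h3 : α u (c : Ω) = (c : Ω) * ((d : Ω)⁻¹ * α u d) := by
          rw [← h1]
          group
        rw [h3]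
        group
      rcases hfpf u _ h2 with h4 | h4
      · exact absurd h4 hu1
      · apply Subtype.ext
        have := mul_inv_eq_one.1 h4
        exact this.symm
    obtain ⟨c, hc'⟩ := (Finite.injective_iff_surjective.1 hφinj) ⟨z, hzB⟩
    apply hχz
    rw [← hc']
    simp only [φ]
    rw [hχmul, hinv, mul_comm, ← hχmul, mul_inv_cancel, hχ1]
  have hind : iSupIndep Lχ :=
    Module.End.independent_iInf_maxGenEigenspace_of_forall_mapsTo f
      (fun i j φ => Module.End.mapsTo_maxGenEigenspace_of_comm (hfcomm j i) φ)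
  have hind2 : iSupIndep (fun s => Lχ (χs s)) := hind.comp hχsinj
  letI : Fintype H := Fintype.ofFinite H
  have hsum := finrank_iSup_indep' _ hind2
  have hfr : ∀ s, finrank k (Lχ χ) ≤ finrank k (Lχ (χs s)) := by
    intro s
    have h1 := Submodule.finrank_mono (hmaps s)
    have h2 : finrank k ((Lχ χ).map (σ s)) = finrank k (Lχ χ) :=
      ((Submodule.equivMapOfInjective (σ s) (hσinj s) (Lχ χ)).finrank_eq).symm
    rwa [h2] at h1
  have hfr1 : Nat.card H * finrank k (Lχ χ) ≤ Nat.card H := by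
    calc Nat.card H * finrank k (Lχ χ) = ∑ _s : H, finrank k (Lχ χ) := by
          simp [Nat.card_eq_fintype_card]
      _ ≤ ∑ s, finrank k (Lχ (χs s)) := Finset.sum_le_sum (fun s _ => hfr s)
      _ = finrank k (⨆ s, Lχ (χs s) : Submodule k V) := hsum.symm
      _ ≤ finrank k V := Submodule.finrank_le _
      _ ≤ Nat.card H := hdim
  have hdpos : 0 < finrank k (Lχ χ) := by
    rw [Module.finrank_pos_iff]
    exact ⟨⟨⟨v0, hv0⟩, 0, fun h => hv0ne (congrArg Subtype.val h)⟩⟩
  have hHpos : 0 < Nat.card H := Nat.card_pos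
  have hd1 : finrank k (Lχ χ) = 1 := by
    have : finrank k (Lχ χ) ≤ 1 := Nat.le_of_mul_le_mul_left (by simpa using hfr1) hHpos
    omega
  -- The group acts on the line by scalars.
  have hstable : ∀ g, ρ g v0 ∈ Lχ χ := by
    intro g
    rw [hLmem]
    intro b
    have h1 : ρ b (ρ g v0) = ρ g (ρ b v0) := LinearMap.congr_fun (b.2 g).eq v0
    rw [h1, hv0' b, map_smul]
  have hscal : ∀ g, ∃ c : k, ρ g v0 = c • v0 := by
    intro g
    have hne0 : (⟨v0, hv0⟩ : ↥(Lχ χ)) ≠ 0 := fun h => hv0ne (congrArg Subtype.val h)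
    obtain ⟨c, hc'⟩ := (finrank_eq_one_iff_of_nonzero' _ hne0).1 hd1 ⟨ρ g v0, hstable g⟩
    exact ⟨c, (congrArg Subtype.val hc').symm⟩
  choose c hc' using hscal
  have hcmul : ∀ a b, c (a * b) = c a * c b := by
    intro a b
    have h1 := hc' (a * b)
    have h2 : ρ (a * b) v0 = ρ a (ρ b v0) := by simp [map_mul]
    rw [h2, hc' b, map_smul, hc' a, smul_smul] at h1
    have h3 := smul_left_injective k hv0ne h1
    rw [← h3, mul_comm]
  have hc1 : c 1 = 1 := by
    have h1 := hc' 1
    have h2 : ρ 1 v0 = (1 : k) • v0 := by simp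
    rw [h2] at h1
    exact (smul_left_injective k hv0ne h1).symm
  let T : Subgroup Ω :=
    { carrier := {g | c g = 1}
      mul_mem' := by
        intro a b ha hb
        show c (a * b) = 1
        rw [hcmul, show c a = 1 from ha, show c b = 1 from hb, one_mul]
      one_mem' := hc1
      inv_mem' := by
        intro a ha
        show c a⁻¹ = 1
        have h1 : c a⁻¹ * c a = 1 := by rw [← hcmul, inv_mul_cancel, hc1]
        rwa [show c a = 1 from ha, mul_one] at h1 }
  have hDT : commutator Ω ≤ T := by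
    rw [_root_.commutator_def, Subgroup.commutator_le]
    intro a _ b _
    show c ⁅a, b⁆ = 1
    rw [commutatorElement_def, hcmul, hcmul, hcmul]
    have h1 : c a⁻¹ * c a = 1 := by rw [← hcmul, inv_mul_cancel, hc1]
    have h2 : c b⁻¹ * c b = 1 := by rw [← hcmul, inv_mul_cancel, hc1]
    calc c a * c b * c a⁻¹ * c b⁻¹ = (c a⁻¹ * c a) * (c b⁻¹ * c b) := by ring
      _ = 1 := by rw [h1, h2, one_mul]
  have hzT : c z = 1 := hDT hzD
  apply hχz
  have h1 := hc' z
  rw [hzT] at h1
  have h2 := hv0' ⟨z, hzB⟩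
  have h3 : ρ z v0 = χ ⟨z, hzB⟩ • v0 := h2
  rw [h3] at h1
  exact smul_left_injective k hv0ne h1

end

end Cfsg.Agent.Lib.FrobFix
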