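import Cfsg.Agent.Lib.FrobFree.Main
import Mathlib

/-! The fixed-point dimension formula for Frobenius-type actions on vector spaces. -/

set_option autoImplicit false

namespace Cfsg.Agent.Lib.FrobFix

open Module
open scoped BigOperators

variable {k V Ω H : Type*} [Field k] [AddCommGroup V] [Module k V] [FiniteDimensional k V]
  [Group Ω] [Finite Ω] [Group H] [Fintype H]

/-- Fixed points of a group of units. -/
def fixH (σ : H →* (Module.End k V)ˣ) : Submodule k V where
  carrier := {v | ∀ h, ((σ h : (Module.End k V)ˣ) : Module.End k V) v = v}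
  add_mem' := by
    intro a b ha hb h
    rw [map_add, ha h, hb h]
  zero_mem' := by
    intro h
    simp
  smul_mem' := by
    intro c a ha h
    rw [map_smul, ha h]

/-- Fixed points of a monoid homomorphism to endomorphisms. -/
def fixR (ρ : Ω →* Module.End k V) : Submodule k V where
  carrier := {v | ∀ e, ρ e v = v}
  add_mem' := by
    intro a b ha hb h
    rw [map_add, ha h, hb h]
  zero_mem' := by
    intro h
    simp
  smul_mem' := by
    intro c a ha h
    rw [map_smul, ha h]

theorem mem_fixH {σ : H →* (Module.End k V)ˣ} {v : V} :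
    v ∈ fixH σ ↔ ∀ h, ((σ h : (Module.End k V)ˣ) : Module.End k V) v = v := Iff.rfl

theorem mem_fixR {ρ : Ω →* Module.End k V} {v : V} : v ∈ fixR ρ ↔ ∀ e, ρ e v = v := Iff.rfl

/-- A free action: the dimension of the fixed points. -/
theorem finrank_fixH_of_free (σ : H →* (Module.End k V)ˣ) (W : Submodule k V)
    (hsup : (⨆ h : H, W.map ((σ h : (Module.End k V)ˣ) : Module.End k V)) = ⊤)
    (hdim : Fintype.card H * finrank k W = finrank k V) (hH : ((Fintype.card H : ℕ) : k) ≠ 0) :
    Fintype.card H * finrank k (fixH σ) = finrank k V := by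
  classical
  have hinj : ∀ h : H, Function.Injective ((σ h : (Module.End k V)ˣ) : Module.End k V) := by
    intro h
    refine Function.LeftInverse.injective (g := (((σ h)⁻¹ : (Module.End k V)ˣ) : Module.End k V)) ?_
    intro x
    rw [← Module.End.mul_apply, Units.inv_mul, Module.End.one_apply]
  -- the sum of the translates is direct
  have hrank : ∀ h : H, finrank k (W.map ((σ h : (Module.End k V)ˣ) : Module.End k V)) =
      finrank k W := fun h =>
    (LinearEquiv.finrank_eq (Submodule.equivMapOfInjective _ (hinj h) W)).symm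
  have hsurj : Function.Surjective (DirectSum.coeLinearMap (fun h : H =>
      W.map ((σ h : (Module.End k V)ˣ) : Module.End k V))) := by
    rw [← LinearMap.range_eq_top, DirectSum.range_coeLinearMap, hsup]
  have hfin : finrank k (DirectSum H fun h : H =>
      W.map ((σ h : (Module.End k V)ˣ) : Module.End k V)) = finrank k V := by
    rw [Module.finrank_directSum, ← hdim]
    simp [hrank]
  have hinj' := (LinearMap.injective_iff_surjective_of_finrank_eq_finrank hfin).2 hsurj
  -- the trace map
  let T : W →ₗ[k] V :=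
    (∑ h : H, ((σ h : (Module.End k V)ˣ) : Module.End k V)) ∘ₗ W.subtype
  have hTapply : ∀ w : W, T w = ∑ h : H, ((σ h : (Module.End k V)ˣ) : Module.End k V) w := by
    intro w
    simp [T, LinearMap.sum_apply]
  have hTinj : Function.Injective T := by
    rw [← LinearMap.ker_eq_bot, eq_bot_iff]
    intro w hw
    rw [LinearMap.mem_ker, hTapply] at hw
    rw [Submodule.mem_bot]
    let x : DirectSum H (fun h : H => ↥(W.map ((σ h : (Module.End k V)ˣ) : Module.End k V))) :=
      ∑ h : H, DirectSum.lof k H (fun h : H => ↥(W.map ((σ h : (Module.End k V)ˣ) : Module.End k V))) h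
        ⟨((σ h : (Module.End k V)ˣ) : Module.End k V) w, Submodule.mem_map_of_mem w.2⟩
    have hx : DirectSum.coeLinearMap (fun h : H =>
        W.map ((σ h : (Module.End k V)ˣ) : Module.End k V)) x = 0 := by
      simp only [x, map_sum, DirectSum.coeLinearMap_lof]
      exact hw
    have hx0 : x = 0 := hinj' (by rw [hx, map_zero])
    have hcomp := congrArg (fun y => (y (1 : H) : V)) hx0
    simp only [x] at hcomp
    have hcomp' : ((∑ h : H, DirectSum.lof k H
        (fun h : H => ↥(W.map ((σ h : (Module.End k V)ˣ) : Module.End k V))) h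
        ⟨((σ h : (Module.End k V)ˣ) : Module.End k V) w, Submodule.mem_map_of_mem w.2⟩) (1 : H) : V)
        = ((σ (1 : H) : (Module.End k V)ˣ) : Module.End k V) w := by
      rw [DFinsupp.finsetSum_apply]
      rw [Finset.sum_eq_single (1 : H)]
      · simp [DirectSum.lof_eq_of]
      · intro b _ hb
        rw [DirectSum.lof_eq_of]
        exact DirectSum.of_eq_of_ne _ _ _ hb.symm
      · simp
    rw [hcomp'] at hcomp
    simpa [map_one] using hcomp
  have hTrange : LinearMap.range T = fixH σ := by
    apply le_antisymm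
    · rintro _ ⟨w, rfl⟩ g
      rw [hTapply, map_sum]
      have e : ∀ h : H, ((σ g : (Module.End k V)ˣ) : Module.End k V)
          (((σ h : (Module.End k V)ˣ) : Module.End k V) w) =
          ((σ (g * h) : (Module.End k V)ˣ) : Module.End k V) w := by
        intro h
        simp only [map_mul, Units.val_mul, Module.End.mul_apply]
      rw [Finset.sum_congr rfl (fun h _ => e h)]
      exact Equiv.sum_comp (Equiv.mulLeft g) (fun h => ((σ h : (Module.End k V)ˣ) : Module.End k V) w)
    · intro v hv
      -- write `v` as a sum of elements of the translates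
      have hv' : v ∈ (⨆ h : H, W.map ((σ h : (Module.End k V)ˣ) : Module.End k V)) := by
        rw [hsup]; trivial
      obtain ⟨f, hf⟩ := (Submodule.mem_iSup_iff_exists_finsupp _ _).1 hv'
      have hsv : ∀ h : H, ∃ w : W, (f h : V) = ((σ h : (Module.End k V)ˣ) : Module.End k V) w := by
        intro h
        obtain ⟨w, hw, e⟩ := hf.1 h
        exact ⟨⟨w, hw⟩, e.symm⟩
      choose w hw using hsv
      have hsum : v = ∑ h : H, ((σ h : (Module.End k V)ˣ) : Module.End k V) (w h) := by
        rw [← hf.2]
        rw [Finsupp.sum_fintype _ _ (by intro; rfl)]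
        exact Finset.sum_congr rfl fun h _ => hw h
      have hcard : ((Fintype.card H : ℕ) : k) • v = T (∑ h : H, w h) := by
        rw [hTapply]
        calc ((Fintype.card H : ℕ) : k) • v = ∑ g : H, ((σ g : (Module.End k V)ˣ) : Module.End k V) v := by
              have : ∀ g : H, ((σ g : (Module.End k V)ˣ) : Module.End k V) v = v := hv
              simp [this, Nat.cast_smul_eq_nsmul]
          _ = ∑ g : H, ∑ h : H, ((σ (g * h) : (Module.End k V)ˣ) : Module.End k V) (w h) := by
              refine Finset.sum_congr rfl fun g _ => ?_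
              conv_lhs => rw [hsum]
              rw [map_sum]
              refine Finset.sum_congr rfl fun h _ => ?_
              simp only [map_mul, Units.val_mul, Module.End.mul_apply]
          _ = ∑ h : H, ∑ g : H, ((σ (g * h) : (Module.End k V)ˣ) : Module.End k V) (w h) :=
              Finset.sum_comm
          _ = ∑ h : H, ∑ g : H, ((σ g : (Module.End k V)ˣ) : Module.End k V) (w h) := by
              refine Finset.sum_congr rfl fun h _ => ?_
              exact Equiv.sum_comp (Equiv.mulRight h)
                (fun g => ((σ g : (Module.End k V)ˣ) : Module.End k V) (w h))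
          _ = ∑ g : H, ∑ h : H, ((σ g : (Module.End k V)ˣ) : Module.End k V) (w h) :=
              Finset.sum_comm
          _ = ∑ g : H, ((σ g : (Module.End k V)ˣ) : Module.End k V) ((∑ h : H, w h : W) : V) := by
              refine Finset.sum_congr rfl fun g _ => ?_
              rw [Submodule.coe_sum, map_sum]
      refine ⟨((Fintype.card H : ℕ) : k)⁻¹ • ∑ h : H, w h, ?_⟩
      rw [map_smul, ← hcard, smul_smul, inv_mul_cancel₀ hH, one_smul]
  have h1 : finrank k (fixH σ) = finrank k W := by
    rw [← hTrange]
    exact LinearMap.finrank_range_of_inj hTinj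
  rw [h1, hdim]

/-- The fixed-point dimension formula for a Frobenius-type action. -/
theorem fixed_dim_formula (ρ : Ω →* Module.End k V) (σ : H →* (Module.End k V)ˣ) (α : H →* MulAut Ω)
    (hc : ∀ h e, ((σ h : (Module.End k V)ˣ) : Module.End k V) * ρ e *
      (((σ h)⁻¹ : (Module.End k V)ˣ) : Module.End k V) = ρ (α h e))
    (hfpf : ∀ h e, α h e = e → h = 1 ∨ e = 1)
    [hnil : Group.IsNilpotent Ω] (hΩ : ((Nat.card Ω : ℕ) : k) ≠ 0)
    (hH : ((Fintype.card H : ℕ) : k) ≠ 0) :
    Fintype.card H * finrank k ↥(fixH σ ⊓ fixR ρ) + finrank k V =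
      Fintype.card H * finrank k ↥(fixH σ) + finrank k ↥(fixR ρ) := by
  classical
  letI : Fintype Ω := Fintype.ofFinite Ω
  have hΩ' : ((Fintype.card Ω : ℕ) : k) ≠ 0 := by rwa [← Nat.card_eq_fintype_card]
  let π : Module.End k V := ((Fintype.card Ω : ℕ) : k)⁻¹ • ∑ e : Ω, ρ e
  have hπ : ∀ v, π v = ((Fintype.card Ω : ℕ) : k)⁻¹ • ∑ e : Ω, ρ e v := by
    intro v
    simp [π, LinearMap.sum_apply]
  have hπρ : ∀ e v, π (ρ e v) = π v := by
    intro e v
    rw [hπ, hπ]
    congr 1
    have e1 : ∀ g : Ω, ρ g (ρ e v) = ρ (g * e) v := by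
      intro g
      rw [map_mul, Module.End.mul_apply]
    rw [Finset.sum_congr rfl (fun g _ => e1 g)]
    exact Equiv.sum_comp (Equiv.mulRight e) (fun g => ρ g v)
  have hρπ : ∀ e v, ρ e (π v) = π v := by
    intro e v
    rw [hπ, map_smul, map_sum]
    congr 1
    have e1 : ∀ g : Ω, ρ e (ρ g v) = ρ (e * g) v := by
      intro g
      rw [map_mul, Module.End.mul_apply]
    rw [Finset.sum_congr rfl (fun g _ => e1 g)]
    exact Equiv.sum_comp (Equiv.mulLeft e) (fun g => ρ g v)
  have hπfix : ∀ v, v ∈ fixR ρ → π v = v := by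
    intro v hv
    have h1 : ∀ e, ρ e v = v := hv
    rw [hπ]
    simp only [h1, Finset.sum_const, Finset.card_univ]
    rw [← Nat.cast_smul_eq_nsmul k, smul_smul, inv_mul_cancel₀ hΩ', one_smul]
  have hπmem : ∀ v, π v ∈ fixR ρ := fun v e => hρπ e v
  have hπσ : ∀ h v, ((σ h : (Module.End k V)ˣ) : Module.End k V) (π v) =
      π (((σ h : (Module.End k V)ˣ) : Module.End k V) v) := by
    intro h v
    rw [hπ, hπ, map_smul, map_sum]
    congr 1
    have e1 : ∀ g : Ω, ((σ h : (Module.End k V)ˣ) : Module.End k V) (ρ g v) =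
        ρ (α h g) (((σ h : (Module.End k V)ˣ) : Module.End k V) v) := by
      intro g
      rw [← hc h g]
      simp only [Module.End.mul_apply]
      congr 2
      rw [← Module.End.mul_apply, Units.inv_mul, Module.End.one_apply]
    rw [Finset.sum_congr rfl (fun g _ => e1 g)]
    exact Equiv.sum_comp (α h).toEquiv
      (fun g => ρ g (((σ h : (Module.End k V)ˣ) : Module.End k V) v))
  set Y : Submodule k V := LinearMap.ker π with hY
  have hYρ : ∀ e, ∀ y ∈ Y, ρ e y ∈ Y := by
    intro e y hy
    rw [hY, LinearMap.mem_ker] at hy ⊢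
    rw [hπρ, hy]
  have hYσ : ∀ h, ∀ y ∈ Y, ((σ h : (Module.End k V)ˣ) : Module.End k V) y ∈ Y := by
    intro h y hy
    rw [hY, LinearMap.mem_ker] at hy ⊢
    rw [← hπσ, hy, map_zero]
  let ρY : Ω →* Module.End k Y :=
    { toFun := fun e => (ρ e).restrict (hYρ e)
      map_one' := by
        ext y
        simp
      map_mul' := by
        intro a b
        ext y
        simp [map_mul, Module.End.mul_apply] }
  let σ₀ : H →* Module.End k Y :=
    { toFun := fun h => (((σ h : (Module.End k V)ˣ) : Module.End k V)).restrict (hYσ h)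
      map_one' := by
        ext y
        simp
      map_mul' := by
        intro a b
        ext y
        simp [map_mul, Module.End.mul_apply] }
  let σY : H →* (Module.End k Y)ˣ := σ₀.toHomUnits
  have hσY : ∀ h (y : Y), (((σY h : (Module.End k Y)ˣ) : Module.End k Y) y : V) =
      ((σ h : (Module.End k V)ˣ) : Module.End k V) y := by
    intro h y
    rfl
  have hcY : ∀ h e, ((σY h : (Module.End k Y)ˣ) : Module.End k Y) * ρY e *
      (((σY h)⁻¹ : (Module.End k Y)ˣ) : Module.End k Y) = ρY (α h e) := by
    intro h e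
    ext y
    have h1 := congrArg (fun f : Module.End k V => f (y : V)) (hc h e)
    simp only [Module.End.mul_apply] at h1
    rw [← map_inv] at h1 ⊢
    simp only [Module.End.mul_apply]
    rw [hσY]
    exact h1
  have h0Y : ∀ v : Y, (∀ e, ρY e v = v) → v = 0 := by
    intro v hv
    apply Subtype.ext
    have h1 : (v : V) ∈ fixR ρ := by
      intro e
      exact congrArg Subtype.val (hv e)
    have h2 : π (v : V) = 0 := v.2
    rw [← hπfix _ h1, h2]
    rfl
  obtain ⟨W, hsup, hdim⟩ := Cfsg.Agent.Lib.FrobFree.free_general ρY σY α hcY hfpf hΩ h0Y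
  have hfree := finrank_fixH_of_free σY W hsup hdim hH
  have hmap : (fixH σY).map Y.subtype = fixH σ ⊓ Y := by
    apply le_antisymm
    · rintro _ ⟨y, hy, rfl⟩
      refine ⟨?_, y.2⟩
      intro h
      exact congrArg Subtype.val (hy h)
    · rintro v ⟨h1, h2⟩
      refine ⟨⟨v, h2⟩, ?_, rfl⟩
      intro h
      apply Subtype.ext
      exact h1 h
  have hfY : finrank k ↥(fixH σY) = finrank k ↥(fixH σ ⊓ Y) := by
    rw [← hmap, Submodule.finrank_map_subtype_eq]
  set A := fixH σ ⊓ fixR ρ with hA
  set B := fixH σ ⊓ Y with hB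
  have hAB1 : A ⊔ B = fixH σ := by
    apply le_antisymm
    · exact sup_le inf_le_left inf_le_left
    · intro v hv
      have h1 : π v ∈ A := by
        refine ⟨?_, hπmem v⟩
        intro h
        rw [hπσ, show ((σ h : (Module.End k V)ˣ) : Module.End k V) v = v from hv h]
      have h2 : v - π v ∈ B := by
        refine ⟨Submodule.sub_mem _ hv h1.1, ?_⟩
        show π (v - π v) = 0
        rw [map_sub, hπfix _ (hπmem v), sub_self]
      have h3 : v = π v + (v - π v) := by abel
      rw [h3]
      exact Submodule.add_mem_sup h1 h2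
  have hAB2 : A ⊓ B = ⊥ := by
    rw [eq_bot_iff]
    rintro v ⟨⟨_, h1⟩, ⟨_, h2⟩⟩
    have h3 : π v = 0 := h2
    rw [hπfix v h1] at h3
    rw [h3]
    exact Submodule.zero_mem _
  have hRY1 : fixR ρ ⊔ Y = ⊤ := by
    rw [eq_top_iff]
    intro v _
    have h2 : v - π v ∈ Y := by
      show π (v - π v) = 0
      rw [map_sub, hπfix _ (hπmem v), sub_self]
    have h3 : v = π v + (v - π v) := by abel
    rw [h3]
    exact Submodule.add_mem_sup (hπmem v) h2
  have hRY2 : fixR ρ ⊓ Y = ⊥ := by
    rw [eq_bot_iff]
    rintro v ⟨h1, h2⟩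
    have h3 : π v = 0 := h2
    rw [hπfix v h1] at h3
    rw [h3]
    exact Submodule.zero_mem _
  have d1 := Submodule.finrank_sup_add_finrank_inf_eq A B
  have d2 := Submodule.finrank_sup_add_finrank_inf_eq (fixR ρ) Y
  rw [hAB1, hAB2, finrank_bot, add_zero] at d1
  rw [hRY1, hRY2, finrank_bot, add_zero, finrank_top] at d2
  rw [hfY] at hfree
  rw [d1, d2, mul_add, ← hfree]
  ring

end Cfsg.Agent.Lib.FrobFix
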