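import Cfsg.Agent.Lib.FrobFix.Linear
import Mathlib

/-! The fixed-point count for Frobenius-type actions on elementary abelian groups. -/

set_option autoImplicit false

namespace Cfsg.Agent.Lib.FrobFix

open Module

section

variable {Ω H : Type*} [Group Ω] [Finite Ω] [Group H] [Finite H]

/-- The additive form of the count. -/
theorem section_formula_add {A : Type*} [AddCommGroup A] [Finite A] (q : ℕ) [hq' : Fact q.Prime]
    [Module (ZMod q) A]
    (ρ' : Ω →* Module.End (ZMod q) A) (σ₀ : H →* Module.End (ZMod q) A) (α : H →* MulAut Ω)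
    (hc : ∀ h e x, σ₀ h (ρ' e (σ₀ h⁻¹ x)) = ρ' (α h e) x)
    (hfpf : ∀ h e, α h e = e → h = 1 ∨ e = 1) [hnil : Group.IsNilpotent Ω]
    (hΩ : ¬ q ∣ Nat.card Ω) (hH : ¬ q ∣ Nat.card H) :
    Nat.card {x : A // (∀ h, σ₀ h x = x) ∧ ∀ e, ρ' e x = x} ^ Nat.card H * Nat.card A =
      Nat.card {x : A // ∀ h, σ₀ h x = x} ^ Nat.card H * Nat.card {x : A // ∀ e, ρ' e x = x} := by
  classical
  letI : Fintype H := Fintype.ofFinite H
  let σ' : H →* (Module.End (ZMod q) A)ˣ := σ₀.toHomUnits
  have hσ' : ∀ h x, ((σ' h : (Module.End (ZMod q) A)ˣ) : Module.End (ZMod q) A) x = σ₀ h x :=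
    fun h x => rfl
  have hσ'i : ∀ h x, (((σ' h)⁻¹ : (Module.End (ZMod q) A)ˣ) : Module.End (ZMod q) A) x =
      σ₀ h⁻¹ x := by
    intro h x
    rw [← map_inv, hσ']
  have hcm : ∀ h e, ((σ' h : (Module.End (ZMod q) A)ˣ) : Module.End (ZMod q) A) *
      ρ' e * (((σ' h)⁻¹ : (Module.End (ZMod q) A)ˣ) : Module.End (ZMod q) A) = ρ' (α h e) := by
    intro h e
    apply LinearMap.ext
    intro x
    simp only [Module.End.mul_apply]
    rw [hσ'i, hσ', hc]
  have hne : ∀ n : ℕ, ¬ q ∣ n → ((n : ℕ) : ZMod q) ≠ 0 := by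
    intro n hn h0
    exact hn ((ZMod.natCast_eq_zero_iff n q).1 h0)
  have hΩ' : ((Nat.card Ω : ℕ) : ZMod q) ≠ 0 := hne _ hΩ
  have hH' : ((Fintype.card H : ℕ) : ZMod q) ≠ 0 := by
    rw [← Nat.card_eq_fintype_card]
    exact hne _ hH
  haveI : FiniteDimensional (ZMod q) A := Module.Finite.of_finite
  have hform := fixed_dim_formula ρ' σ' α hcm hfpf hΩ' hH'
  have hcard : ∀ (S : Submodule (ZMod q) A), Nat.card S = q ^ finrank (ZMod q) S := by
    intro S
    rw [Module.natCard_eq_pow_finrank (K := ZMod q), Nat.card_zmod]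
  have e1 : Nat.card {x : A // (∀ h, σ₀ h x = x) ∧ ∀ e, ρ' e x = x} =
      q ^ finrank (ZMod q) ↥(fixH σ' ⊓ fixR ρ') := by
    rw [← hcard]
    apply Nat.card_congr
    refine Equiv.subtypeEquivRight ?_
    intro x
    rw [Submodule.mem_inf, mem_fixH, mem_fixR]
    simp only [hσ']
  have e2 : Nat.card {x : A // ∀ h, σ₀ h x = x} = q ^ finrank (ZMod q) ↥(fixH σ') := by
    rw [← hcard]
    apply Nat.card_congr
    refine Equiv.subtypeEquivRight ?_
    intro x
    rw [mem_fixH]
    simp only [hσ']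
  have e3 : Nat.card {x : A // ∀ e, ρ' e x = x} = q ^ finrank (ZMod q) ↥(fixR ρ') := by
    rw [← hcard]
    apply Nat.card_congr
    refine Equiv.subtypeEquivRight ?_
    intro x
    rw [mem_fixR]
  have e4 : Nat.card A = q ^ finrank (ZMod q) A := by
    rw [Module.natCard_eq_pow_finrank (K := ZMod q), Nat.card_zmod]
  rw [e1, e2, e3, e4, ← pow_mul, ← pow_mul, ← pow_add, ← pow_add, Nat.card_eq_fintype_card (α := H),
    mul_comm (finrank (ZMod q) ↥(fixH σ' ⊓ fixR ρ')), hform, mul_comm (finrank (ZMod q) ↥(fixH σ'))]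

/-- The count for commutative multiplicative groups. -/
theorem section_formula_comm {Q : Type*} [CommGroup Q] [Finite Q] (q : ℕ) [hq' : Fact q.Prime]
    [Module (ZMod q) (Additive Q)]
    (ρ : Ω →* MulAut Q) (σ : H →* MulAut Q) (α : H →* MulAut Ω)
    (hc : ∀ h e x, σ h (ρ e ((σ h)⁻¹ x)) = ρ (α h e) x)
    (hfpf : ∀ h e, α h e = e → h = 1 ∨ e = 1) [hnil : Group.IsNilpotent Ω]
    (hΩ : ¬ q ∣ Nat.card Ω) (hH : ¬ q ∣ Nat.card H) :
    Nat.card {x : Q // (∀ h, σ h x = x) ∧ ∀ e, ρ e x = x} ^ Nat.card H * Nat.card Q =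
      Nat.card {x : Q // ∀ h, σ h x = x} ^ Nat.card H * Nat.card {x : Q // ∀ e, ρ e x = x} := by
  let T : MulAut Q → Module.End (ZMod q) (Additive Q) :=
    fun φ => AddMonoidHom.toZModLinearMap q (MonoidHom.toAdditive φ.toMonoidHom)
  have hT : ∀ (φ : MulAut Q) (x : Additive Q), T φ x = Additive.ofMul (φ (Additive.toMul x)) := by
    intro φ x
    simp only [T, AddMonoidHom.coe_toZModLinearMap, MonoidHom.coe_toAdditive]
    rfl
  let τ : MulAut Q →* Module.End (ZMod q) (Additive Q) :=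
    { toFun := T
      map_one' := by
        apply LinearMap.ext
        intro x
        rw [hT, Module.End.one_apply]
        rfl
      map_mul' := by
        intro a b
        apply LinearMap.ext
        intro x
        rw [Module.End.mul_apply, hT, hT, hT]
        rfl }
  have hτ : ∀ (φ : MulAut Q) (x : Additive Q), τ φ x = Additive.ofMul (φ (Additive.toMul x)) := hT
  have key := section_formula_add (A := Additive Q) q (τ.comp ρ) (τ.comp σ) α
    (fun h e x => by
      simp only [MonoidHom.comp_apply, hτ, toMul_ofMul]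
      rw [map_inv, hc])
    hfpf hΩ hH
  have e1 : Nat.card {x : Additive Q // (∀ h, τ.comp σ h x = x) ∧ ∀ e, τ.comp ρ e x = x} =
      Nat.card {x : Q // (∀ h, σ h x = x) ∧ ∀ e, ρ e x = x} := by
    apply Nat.card_congr
    refine Equiv.subtypeEquiv (Additive.toMul) ?_
    intro x
    simp only [MonoidHom.comp_apply, hτ]
    constructor
    · rintro ⟨h1, h2⟩
      exact ⟨fun h => Additive.ofMul.injective (h1 h), fun h => Additive.ofMul.injective (h2 h)⟩
    · rintro ⟨h1, h2⟩
      exact ⟨fun h => congrArg Additive.ofMul (h1 h), fun h => congrArg Additive.ofMul (h2 h)⟩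
  have e2 : Nat.card {x : Additive Q // ∀ h, τ.comp σ h x = x} =
      Nat.card {x : Q // ∀ h, σ h x = x} := by
    apply Nat.card_congr
    refine Equiv.subtypeEquiv (Additive.toMul) ?_
    intro x
    simp only [MonoidHom.comp_apply, hτ]
    constructor
    · exact fun h1 h => Additive.ofMul.injective (h1 h)
    · exact fun h1 h => congrArg Additive.ofMul (h1 h)
  have e3 : Nat.card {x : Additive Q // ∀ h, τ.comp ρ h x = x} =
      Nat.card {x : Q // ∀ h, ρ h x = x} := by
    apply Nat.card_congr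
    refine Equiv.subtypeEquiv (Additive.toMul) ?_
    intro x
    simp only [MonoidHom.comp_apply, hτ]
    constructor
    · exact fun h1 h => Additive.ofMul.injective (h1 h)
    · exact fun h1 h => congrArg Additive.ofMul (h1 h)
  have e4 : Nat.card (Additive Q) = Nat.card Q := rfl
  rwa [e1, e2, e3, e4] at key

/-- The count for elementary abelian groups. -/
theorem section_formula {Q : Type*} [Group Q] [Finite Q] (q : ℕ) [hq' : Fact q.Prime]
    (hcomm : ∀ x y : Q, x * y = y * x) (hq : ∀ x : Q, x ^ q = 1)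
    (ρ : Ω →* MulAut Q) (σ : H →* MulAut Q) (α : H →* MulAut Ω)
    (hc : ∀ h e x, σ h (ρ e ((σ h)⁻¹ x)) = ρ (α h e) x)
    (hfpf : ∀ h e, α h e = e → h = 1 ∨ e = 1) [hnil : Group.IsNilpotent Ω]
    (hΩ : ¬ q ∣ Nat.card Ω) (hH : ¬ q ∣ Nat.card H) :
    Nat.card {x : Q // (∀ h, σ h x = x) ∧ ∀ e, ρ e x = x} ^ Nat.card H * Nat.card Q =
      Nat.card {x : Q // ∀ h, σ h x = x} ^ Nat.card H * Nat.card {x : Q // ∀ e, ρ e x = x} := by
  letI cQ : CommGroup Q := { (inferInstance : Group Q) with mul_comm := hcomm }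
  letI mA : Module (ZMod q) (Additive Q) := AddCommGroup.zmodModule (n := q) (fun x => by
    show Additive.ofMul ((Additive.toMul x) ^ q) = 0
    rw [hq]
    rfl)
  exact @section_formula_comm Ω H _ _ _ _ Q cQ _ q hq' mA ρ σ α hc hfpf hnil hΩ hH

end

end Cfsg.Agent.Lib.FrobFix
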