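import Cfsg.Agent.Lib.FrobFix.Cover
import Cfsg.Agent.Lib.FrobFix.Section
import Cfsg.Agent.Lib.FrobThm.FixedPointFree
import Mathlib

/-! The fixed-point count for a Frobenius group acting coprimely on a solvable group. -/

set_option autoImplicit false

namespace Cfsg.Agent.Lib.FrobFix

open Subgroup

universe u

variable {X : Type u} [Group X] [Finite X]

/-- The kernel of a Frobenius group (in the weak sense of this file) is nilpotent. -/
theorem kernel_nilpotent (U E : Subgroup X) (hE1 : E ≠ ⊥)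
    (hUn : ∀ e ∈ E, ∀ u ∈ U, e * u * e⁻¹ ∈ U)
    (hfpf : ∀ e ∈ E, e ≠ 1 → ∀ u ∈ U, e * u = u * e → u = 1) : Group.IsNilpotent U := by
  classical
  have hne : Nat.card E ≠ 1 := fun h => hE1 (Subgroup.eq_bot_of_card_eq E h)
  obtain ⟨r, hr, hrd⟩ := Nat.exists_prime_and_dvd hne
  haveI : Fact r.Prime := ⟨hr⟩
  obtain ⟨x, hx⟩ := exists_prime_orderOf_dvd_card' r hrd
  have hx1 : (x : X) ≠ 1 := by
    intro h
    have : x = 1 := Subtype.ext h
    rw [this, orderOf_one] at hx
    exact hr.one_lt.ne hx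
  have hit : ∀ (n : ℕ) (u : ↥U), (conjHom E U hUn x)^[n] u = conjHom E U hUn (x ^ n) u := by
    intro n u
    induction n with
    | zero => simp
    | succ n ih =>
      rw [Function.iterate_succ_apply', ih, pow_succ', map_mul, MulAut.mul_apply]
  refine Cfsg.Agent.Lib.FrobThm.fpf_nilpotent hr (conjHom E U hUn x) ?_ ?_
  · intro u hu
    apply Subtype.ext
    have h1 : (x : X) * u * (x : X)⁻¹ = u := congrArg Subtype.val hu
    refine hfpf x x.2 hx1 u u.2 ?_
    calc (x : X) * u = (x : X) * u * (x : X)⁻¹ * x := by group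
      _ = u * x := by rw [h1]
  · intro u
    rw [hit, ← hx, pow_orderOf_eq_one, map_one, MulAut.one_apply]

/-- The count, by induction along an elementary abelian series. -/
theorem main_count (U E : Subgroup X) (hE1 : E ≠ ⊥)
    (hUn : ∀ e ∈ E, ∀ u ∈ U, e * u * e⁻¹ ∈ U)
    (hfpf : ∀ e ∈ E, e ≠ 1 → ∀ u ∈ U, e * u = u * e → u = 1) :
    ∀ (n : ℕ) (L : Subgroup X), Nat.card L ≤ n → (∀ x ∈ U ⊔ E, ∀ h ∈ L, x * h * x⁻¹ ∈ L) →
      Group.IsSolvable L → Nat.Coprime (Nat.card L) (Nat.card ↥(U ⊔ E)) →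
      Nat.card ↥(L ⊓ centralizer ((U ⊔ E : Subgroup X) : Set X)) ^ Nat.card E * Nat.card L =
        Nat.card ↥(L ⊓ centralizer (E : Set X)) ^ Nat.card E *
          Nat.card ↥(L ⊓ centralizer (U : Set X)) := by
  classical
  intro n
  induction n with
  | zero =>
    intro L hL
    exfalso
    have := Nat.card_pos (α := L)
    omega
  | succ n ih =>
    intro L hL hIL hsolv hcop
    by_cases hbot : L = ⊥
    · subst hbot
      simp
    haveI : Nontrivial L := (Subgroup.nontrivial_iff_ne_bot L).2 hbot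
    obtain ⟨q, hq, N₀, hchar, hne, hcomm, hpow⟩ := exists_elem_quot ↥L
    set I : Subgroup X := U ⊔ E with hI
    set N : Subgroup X := N₀.map L.subtype with hN
    have hNle : N ≤ L := by
      rintro _ ⟨n, _, rfl⟩
      exact n.2
    have hNcard : Nat.card N = Nat.card N₀ :=
      Subgroup.card_map_of_injective L.subtype_injective
    have hcardL : Nat.card L = Nat.card N * Nat.card (↥L ⧸ N₀) := by
      rw [hNcard, mul_comm]
      exact Subgroup.card_eq_card_quotient_mul_card_subgroup N₀
    have hQ1 : Nat.card (↥L ⧸ N₀) ≠ 1 := by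
      intro h
      apply hne
      have hsub : Subsingleton (↥L ⧸ N₀) := (Nat.card_eq_one_iff_unique.1 h).1
      rw [eq_top_iff]
      intro x _
      have : ((x : ↥L) : ↥L ⧸ N₀) = 1 := Subsingleton.elim _ _
      exact (QuotientGroup.eq_one_iff x).1 this
    have hQpos : 0 < Nat.card (↥L ⧸ N₀) := Nat.card_pos
    have hNpos : 0 < Nat.card N := Nat.card_pos
    have hNlt : Nat.card N ≤ n := by
      have : Nat.card N * 2 ≤ Nat.card L := by
        rw [hcardL]
        exact Nat.mul_le_mul_left _ (by omega)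
      omega
    have hNsolv : Group.IsSolvable N := by
      have e : N ≃* N₀ := (N₀.equivMapOfInjective L.subtype L.subtype_injective).symm
      exact Group.isSolvable_of_isSolvable_injective (f := e.toMonoidHom) e.injective
    have hNcop : Nat.Coprime (Nat.card N) (Nat.card I) :=
      Nat.Coprime.coprime_dvd_left (Subgroup.card_dvd_of_le hNle) hcop
    have hIH := ih N hNlt (map_char_normalized I L hIL N₀) hNsolv hNcop
    -- The section
    let ψb : ↥I →* MulAut (↥L ⧸ N₀) := quotHom N₀ (conjHom I L hIL)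
    have hUI : U ≤ I := le_sup_left
    have hEI : E ≤ I := le_sup_right
    let ρ : ↥U →* MulAut (↥L ⧸ N₀) := ψb.comp (Subgroup.inclusion hUI)
    let σ : ↥E →* MulAut (↥L ⧸ N₀) := ψb.comp (Subgroup.inclusion hEI)
    let α : ↥E →* MulAut ↥U := conjHom E U hUn
    haveI : Group.IsNilpotent U := kernel_nilpotent U E hE1 hUn hfpf
    have hcomm' : ∀ x y : ↥L ⧸ N₀, x * y = y * x := by
      intro x y
      obtain ⟨x, rfl⟩ := QuotientGroup.mk_surjective x
      obtain ⟨y, rfl⟩ := QuotientGroup.mk_surjective y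
      rw [← QuotientGroup.mk_mul, ← QuotientGroup.mk_mul]
      apply (QuotientGroup.eq (s := N₀)).2
      have h := hcomm y⁻¹ x⁻¹
      have e : (x * y)⁻¹ * (y * x) = y⁻¹ * x⁻¹ * y⁻¹⁻¹ * x⁻¹⁻¹ := by group
      rw [e]
      exact h
    have hpow' : ∀ x : ↥L ⧸ N₀, x ^ q = 1 := by
      intro x
      obtain ⟨x, rfl⟩ := QuotientGroup.mk_surjective x
      rw [← QuotientGroup.mk_pow]
      exact (QuotientGroup.eq_one_iff _).2 (hpow x)
    have hqQ : q ∣ Nat.card (↥L ⧸ N₀) := by
      have hnt : Nontrivial (↥L ⧸ N₀) := by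
        by_contra hnt
        rw [not_nontrivial_iff_subsingleton] at hnt
        exact hQ1 (Nat.card_eq_one_iff_unique.2 ⟨hnt, ⟨1⟩⟩)
      obtain ⟨x, hx⟩ := exists_ne (1 : ↥L ⧸ N₀)
      have h1 : orderOf x = q := orderOf_eq_prime (hpow' x) hx
      rw [← h1]
      exact orderOf_dvd_natCard x
    have hqL : q ∣ Nat.card L := hcardL ▸ Dvd.dvd.mul_left hqQ _
    have hqI : ¬ q ∣ Nat.card I := by
      intro h
      have := Nat.dvd_gcd hqL h
      rw [hcop] at this
      exact hq.out.one_lt.ne' (Nat.dvd_one.1 this)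
    have hqU : ¬ q ∣ Nat.card U := fun h => hqI (h.trans (Subgroup.card_dvd_of_le hUI))
    have hqE : ¬ q ∣ Nat.card E := fun h => hqI (h.trans (Subgroup.card_dvd_of_le hEI))
    have hc : ∀ (h : ↥E) (e : ↥U) (x : ↥L ⧸ N₀), σ h (ρ e ((σ h)⁻¹ x)) = ρ (α h e) x := by
      intro h e x
      have h1 : Subgroup.inclusion hUI (α h e) = Subgroup.inclusion hEI h * Subgroup.inclusion hUI e *
          (Subgroup.inclusion hEI h)⁻¹ := Subtype.ext rfl
      show _ = ψb (Subgroup.inclusion hUI (α h e)) x
      rw [h1, map_mul, map_mul, map_inv]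
      rfl
    have hfpf' : ∀ (h : ↥E) (e : ↥U), α h e = e → h = 1 ∨ e = 1 := by
      intro h e hh
      by_cases h1 : h = 1
      · exact Or.inl h1
      · right
        apply Subtype.ext
        have h2 : (h : X) * e * (h : X)⁻¹ = e := congrArg Subtype.val hh
        refine hfpf h h.2 (fun h3 => h1 (Subtype.ext h3)) e e.2 ?_
        calc (h : X) * e = (h : X) * e * (h : X)⁻¹ * h := by group
          _ = e * h := by rw [h2]
    have hsec := section_formula q hcomm' hpow' ρ σ α hc hfpf' hqU hqE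
    have fixS : ∀ (S : Subgroup X) (hS : S ≤ I) (c : ↥L ⧸ N₀),
        (∀ e : ↥S, ψb (Subgroup.inclusion hS e) c = c) ↔ ∀ x : ↥I, (x : X) ∈ S → ψb x c = c := by
      intro S hS c
      constructor
      · intro h x hx
        exact h ⟨x, hx⟩
      · intro h e
        exact h _ e.2
    have cU := covering_count I L hIL hsolv hcop N₀ U hUI
    have cE := covering_count I L hIL hsolv hcop N₀ E hEI
    have cI := covering_count I L hIL hsolv hcop N₀ I le_rfl
    have aU : Nat.card {x : ↥L ⧸ N₀ // ∀ e, ρ e x = x} =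
        Nat.card {c : ↥L ⧸ N₀ // ∀ x : ↥I, (x : X) ∈ U → quotHom N₀ (conjHom I L hIL) x c = c} :=
      Nat.card_congr (Equiv.subtypeEquivRight (fun c => fixS U hUI c))
    have aE : Nat.card {x : ↥L ⧸ N₀ // ∀ e, σ e x = x} =
        Nat.card {c : ↥L ⧸ N₀ // ∀ x : ↥I, (x : X) ∈ E → quotHom N₀ (conjHom I L hIL) x c = c} :=
      Nat.card_congr (Equiv.subtypeEquivRight (fun c => fixS E hEI c))
    have aI : Nat.card {x : ↥L ⧸ N₀ // (∀ h, σ h x = x) ∧ ∀ e, ρ e x = x} =
        Nat.card {c : ↥L ⧸ N₀ // ∀ x : ↥I, (x : X) ∈ I → quotHom N₀ (conjHom I L hIL) x c = c} := by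
      apply Nat.card_congr
      apply Equiv.subtypeEquivRight
      intro c
      constructor
      · rintro ⟨h1, h2⟩ x -
        -- the stabilizer contains `U` and `E`
        let T₀ : Subgroup ↥I :=
          { carrier := {y | ψb y c = c}
            mul_mem' := by
              intro a b ha hb
              show ψb (a * b) c = c
              rw [map_mul, MulAut.mul_apply, show ψb b c = c from hb, show ψb a c = c from ha]
            one_mem' := by
              show ψb 1 c = c
              rw [map_one, MulAut.one_apply]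
            inv_mem' := by
              intro a ha
              show ψb a⁻¹ c = c
              rw [map_inv]
              have ha' : ψb a c = c := ha
              conv_lhs => rw [← ha']
              simp }
        have hle : I ≤ T₀.map I.subtype := by
          apply sup_le
          · intro u hu
            exact ⟨⟨u, hUI hu⟩, h2 ⟨u, hu⟩, rfl⟩
          · intro u hu
            exact ⟨⟨u, hEI hu⟩, h1 ⟨u, hu⟩, rfl⟩
        obtain ⟨y, hy, hyx⟩ := hle x.2
        have : y = x := Subtype.ext hyx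
        rw [← this]
        exact hy
      · intro h
        exact ⟨fun e => h _ (hEI e.2), fun e => h _ (hUI e.2)⟩
    rw [aI, aE, aU] at hsec
    rw [cI, cE, cU, hcardL, mul_pow, mul_pow]
    set cI' := Nat.card ↥(N ⊓ centralizer (I : Set X))
    set cE' := Nat.card ↥(N ⊓ centralizer (E : Set X))
    set cU' := Nat.card ↥(N ⊓ centralizer (U : Set X))
    calc _ = (cI' ^ Nat.card E * Nat.card N) * (Nat.card {c : ↥L ⧸ N₀ // ∀ x : ↥I, (x : X) ∈ I →
            quotHom N₀ (conjHom I L hIL) x c = c} ^ Nat.card E * Nat.card (↥L ⧸ N₀)) := by ring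
      _ = (cE' ^ Nat.card E * cU') * (Nat.card {c : ↥L ⧸ N₀ // ∀ x : ↥I, (x : X) ∈ E →
            quotHom N₀ (conjHom I L hIL) x c = c} ^ Nat.card E * Nat.card {c : ↥L ⧸ N₀ //
              ∀ x : ↥I, (x : X) ∈ U → quotHom N₀ (conjHom I L hIL) x c = c}) := by
          rw [hIH, hsec]
      _ = _ := by ring

end Cfsg.Agent.Lib.FrobFix
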