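import Mathlib

/-! Elementary abelian characteristic quotients; conjugation homomorphisms between subgroups. -/

set_option autoImplicit false

namespace Cfsg.Agent.Lib.FrobFix

open Subgroup

/-- A nontrivial finite solvable group has a proper characteristic subgroup with elementary abelian
quotient. -/
theorem exists_elem_quot (L : Type*) [Group L] [Finite L] [Group.IsSolvable L] [Nontrivial L] :
    ∃ (q : ℕ) (_ : Fact q.Prime) (N₀ : Subgroup L), N₀.Characteristic ∧ N₀ ≠ ⊤ ∧
      (∀ x y : L, x * y * x⁻¹ * y⁻¹ ∈ N₀) ∧ (∀ x : L, x ^ q ∈ N₀) := by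
  classical
  have hlt : commutator L < ⊤ := Group.IsSolvable.commutator_lt_top_of_nontrivial L
  haveI : Finite (Abelianization L) := by
    unfold Abelianization
    infer_instance
  have hnt : Nat.card (Abelianization L) ≠ 1 := by
    intro h1
    obtain ⟨x, _, hx⟩ := SetLike.exists_of_lt hlt
    have : Subsingleton (Abelianization L) := (Nat.card_eq_one_iff_unique.1 h1).1
    apply hx
    have e : Abelianization.of x = 1 := Subsingleton.elim _ _
    rwa [← MonoidHom.mem_ker, Abelianization.ker_of] at e
  obtain ⟨q, hq, hqd⟩ := Nat.exists_prime_and_dvd hnt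
  haveI hqf : Fact q.Prime := ⟨hq⟩
  obtain ⟨a, ha⟩ := exists_prime_orderOf_dvd_card' q hqd
  let g : Abelianization L →* Abelianization L := powMonoidHom q
  have hgni : ¬ Function.Injective g := by
    intro hinj
    have h1 : g a = g 1 := by
      show a ^ q = 1 ^ q
      rw [one_pow, ← ha, pow_orderOf_eq_one]
    have h2 := hinj h1
    rw [h2, orderOf_one] at ha
    exact hq.one_lt.ne ha
  have hgns : ¬ Function.Surjective g := fun hs => hgni (Finite.injective_iff_surjective.2 hs)
  let N₀ : Subgroup L := g.range.comap Abelianization.of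
  have hmem : ∀ x : L, x ∈ N₀ ↔ ∃ b : Abelianization L, b ^ q = Abelianization.of x := by
    intro x
    rfl
  refine ⟨q, hqf, N₀, ?_, ?_, ?_, ?_⟩
  · rw [Subgroup.characteristic_iff_comap_le]
    intro φ y hy
    have hy' : φ y ∈ N₀ := hy
    rw [hmem] at hy' ⊢
    obtain ⟨b, hb⟩ := hy'
    refine ⟨Abelianization.map φ.symm.toMonoidHom b, ?_⟩
    rw [← map_pow, hb]
    simp
  · intro htop
    apply hgns
    intro b
    obtain ⟨x, rfl⟩ := QuotientGroup.mk'_surjective (commutator L) b
    have : x ∈ N₀ := by rw [htop]; trivial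
    obtain ⟨c, hc⟩ := (hmem x).1 this
    exact ⟨c, hc⟩
  · intro x y
    rw [hmem]
    refine ⟨1, ?_⟩
    rw [one_pow]
    have : Abelianization.of (x * y * x⁻¹ * y⁻¹) = 1 := by
      rw [← MonoidHom.mem_ker, Abelianization.ker_of]
      exact Subgroup.commutator_mem_commutator (mem_top x) (mem_top y)
    rw [this]
  · intro x
    rw [hmem]
    exact ⟨Abelianization.of x, by rw [map_pow]⟩

variable {X : Type*} [Group X]

/-- Conjugation of a normalized subgroup. -/
def conjHom (A B : Subgroup X) (h : ∀ a ∈ A, ∀ b ∈ B, a * b * a⁻¹ ∈ B) : ↥A →* MulAut ↥B where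
  toFun a :=
    { toFun := fun b => ⟨(a : X) * b * (a : X)⁻¹, h a a.2 b b.2⟩
      invFun := fun b => ⟨(a : X)⁻¹ * b * (a : X), by
        have := h a⁻¹ (inv_mem a.2) b b.2
        simpa using this⟩
      left_inv := by
        intro b
        apply Subtype.ext
        simp [mul_assoc]
      right_inv := by
        intro b
        apply Subtype.ext
        simp [mul_assoc]
      map_mul' := by
        intro b c
        apply Subtype.ext
        simp [mul_assoc] }
  map_one' := by
    ext b
    simp
  map_mul' := by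
    intro a c
    ext b
    simp [mul_assoc]

theorem conjHom_apply (A B : Subgroup X) (h : ∀ a ∈ A, ∀ b ∈ B, a * b * a⁻¹ ∈ B) (a : ↥A) (b : ↥B) :
    ((conjHom A B h a b : ↥B) : X) = (a : X) * b * (a : X)⁻¹ := rfl

/-- The action induced on the quotient by a characteristic subgroup. -/
noncomputable def quotHom {Γ L : Type*} [Group Γ] [Group L] (N₀ : Subgroup L) [N₀.Characteristic]
    (ψ : Γ →* MulAut L) : Γ →* MulAut (L ⧸ N₀) where
  toFun g := QuotientGroup.congr N₀ N₀ (ψ g) (by
    rw [Subgroup.map_equiv_eq_comap_symm]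
    exact (inferInstance : N₀.Characteristic).fixed (ψ g).symm)
  map_one' := by
    ext x
    obtain ⟨x, rfl⟩ := QuotientGroup.mk_surjective x
    simp
  map_mul' := by
    intro a b
    ext x
    obtain ⟨x, rfl⟩ := QuotientGroup.mk_surjective x
    simp

theorem quotHom_mk {Γ L : Type*} [Group Γ] [Group L] (N₀ : Subgroup L) [N₀.Characteristic]
    (ψ : Γ →* MulAut L) (g : Γ) (x : L) :
    quotHom N₀ ψ g (x : L ⧸ N₀) = ((ψ g x : L) : L ⧸ N₀) := by
  simp [quotHom]

end Cfsg.Agent.Lib.FrobFix
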